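import Cfsg.Agent.TwoAut.CentralSquares

/-!
# A second central layer does not exist
-/

set_option autoImplicit false
set_option linter.all false

namespace Cfsg.Agent.TwoAut.OrderFive

open scoped commutatorElement

universe u

variable {Q : Type u} [Group Q] [Finite Q]

/-- If `Φ = W ∪ zW` with `W` central elementary abelian and `Φ` the kernel of a layer containing
all squares, then `z` is central of order dividing two. -/
theorem tau {Φ W : Subgroup Q} [Φ.Normal] {ρ : MulAut Q} (L : Layer Φ ρ)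
    (hWc : W ≤ Subgroup.center Q) (hW2 : ∀ w ∈ W, w * w = 1) (z : Q)
    (hzW : z ∉ W) (hmem : ∀ f ∈ Φ, f ∈ W ∨ z⁻¹ * f ∈ W) (hsq : ∀ x, x * x ∈ Φ)
    (hcomm : ∀ x : Q, ⁅x, z⁆ ∈ W) (hρW : ∀ w ∈ W, ρ w ∈ W) (hρz : z⁻¹ * ρ z ∈ W)
    (hy : ∃ y, y * y ∉ W) :
    z ∈ Subgroup.center Q ∧ z * z = 1 := by
  classical
  obtain ⟨y, hy⟩ := hy
  have hcW : ∀ {w : Q}, w ∈ W → ∀ g : Q, g * w = w * g := fun hw g =>
    Subgroup.mem_center_iff.1 (hWc hw) g
  have hyz : z⁻¹ * (y * y) ∈ W := (hmem _ (hsq y)).resolve_left hy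
  have hcmΦ := comm_mem_of_sq hsq
  have hsplit : ∀ {f : Q}, z⁻¹ * f ∈ W → ∀ {g : Q}, z⁻¹ * g ∈ W →
      f * g = z * z * ((z⁻¹ * f) * (z⁻¹ * g)) := by
    intro f hf g hg
    calc f * g = z * ((z⁻¹ * f) * z) * (z⁻¹ * g) := by group
      _ = z * (z * (z⁻¹ * f)) * (z⁻¹ * g) := by rw [hcW hf z]
      _ = _ := by group
  have hzΦ : ∀ f ∈ Φ, f * z = z * f := by
    intro f hf
    rcases hmem f hf with h | h
    · exact (hcW h z).symm
    · calc f * z = z * ((z⁻¹ * f) * z) := by group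
        _ = z * (z * (z⁻¹ * f)) := by rw [hcW h z]
        _ = z * f := by group
  -- commutation with `z`
  let τ : Q →* Q := MonoidHom.mk' (fun x => ⁅x, z⁆) (fun a b => by
    show ⁅a * b, z⁆ = ⁅a, z⁆ * ⁅b, z⁆
    have e : ⁅a * b, z⁆ = a * ⁅b, z⁆ * a⁻¹ * ⁅a, z⁆ := by simp [commutatorElement_def, mul_assoc]
    rw [e, hcW (hcomm b) a, mul_inv_cancel_right, ← hcW (hcomm b)])
  have hτ : ∀ x, τ x = ⁅x, z⁆ := fun x => rfl
  have hker : ∀ x, x ∈ τ.ker ↔ x * z = z * x := fun x => by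
    rw [MonoidHom.mem_ker, hτ, commutatorElement_eq_one_iff_mul_comm]
  have htwo : ∀ x, τ x = 1 ∨ τ x = z * z * ⁅y, z⁆ := by
    intro x
    have e1 : ⁅x, y * y⁆ = ⁅x, z⁆ := by
      have hw : ⁅x, z⁻¹ * (y * y)⁆ = 1 := commutatorElement_eq_one_iff_mul_comm.2 (hcW hyz x)
      calc ⁅x, y * y⁆ = ⁅x, z * (z⁻¹ * (y * y))⁆ := by rw [mul_inv_cancel_left]
        _ = ⁅x, z⁆ * ⁅x, z⁻¹ * (y * y)⁆ := comm_mul_central x z _ (by rw [hw]; exact one_mem _)
        _ = _ := by rw [hw, mul_one]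
    have e2 : ⁅x, y * y⁆ = ⁅x, y⁆ * (y * ⁅x, y⁆ * y⁻¹) := by
      simp [commutatorElement_def, mul_assoc]
    rw [hτ, ← e1, e2]
    rcases hmem _ (hcmΦ x y) with hc | hc
    · left
      rw [hcW hc y, mul_inv_cancel_right]
      exact hW2 _ hc
    · right
      have e3 : y * ⁅x, y⁆ * y⁻¹ = ⁅y, z⁆ * ⁅x, y⁆ := by
        calc y * ⁅x, y⁆ * y⁻¹ = (y * z * y⁻¹ * z⁻¹) * z * ((y * (z⁻¹ * ⁅x, y⁆)) * y⁻¹) := by group
          _ = (y * z * y⁻¹ * z⁻¹) * z * (((z⁻¹ * ⁅x, y⁆) * y) * y⁻¹) := by rw [hcW hc y]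
          _ = _ := by rw [commutatorElement_def y z]; group
      rw [e3, ← mul_assoc, hcW (hcomm y) ⁅x, y⁆, mul_assoc, hsplit hc hc, hW2 _ hc, mul_one,
        hcW (hcomm y)]
  have hzc : ∀ x, x * z = z * x := by
    have hK : ∀ x ∈ τ.ker, ρ x ∈ τ.ker := by
      intro x hx
      rw [hker] at hx ⊢
      have h1 : ρ x * ρ z = ρ z * ρ x := by rw [← map_mul, hx, map_mul]
      have h4 := hcW hρz (ρ x)
      have h5 : ρ x * z * (z⁻¹ * ρ z) = z * ρ x * (z⁻¹ * ρ z) := by
        calc ρ x * z * (z⁻¹ * ρ z) = ρ x * ρ z := by group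
          _ = ρ z * ρ x := h1
          _ = z * ((z⁻¹ * ρ z) * ρ x) := by group
          _ = z * (ρ x * (z⁻¹ * ρ z)) := by rw [h4]
          _ = _ := by group
      exact mul_right_cancel h5
    rcases L.invariant τ.ker (fun f hf => (hker f).2 (hzΦ f hf)) hK with h | h
    · exfalso
      have h1 : Nat.card τ.range ≤ 2 := by
        refine (Nat.card_le_card_of_injective
          (fun r : τ.range => if (r : Q) = 1 then (0 : Fin 2) else 1) ?_).trans_eq (Nat.card_fin 2)
        rintro ⟨_, a, rfl⟩ ⟨_, b, rfl⟩ hab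
        apply Subtype.ext
        simp only at hab ⊢
        split_ifs at hab with ha hb hb
        · rw [ha, hb]
        · simp at hab
        · simp at hab
        · rw [(htwo a).resolve_left ha, (htwo b).resolve_left hb]
      rw [← Subgroup.index_ker, h, L.index] at h1
      omega
    · exact fun x => (hker x).1 (h ▸ Subgroup.mem_top x)
  refine ⟨Subgroup.mem_center_iff.2 hzc, ?_⟩
  have hzz : z * z ∈ W := by
    rcases hmem _ (hsq z) with h | h
    · exact h
    · rw [inv_mul_cancel_left] at h; exact absurd h hzW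
  by_contra hne
  have hΦc : Φ ≤ Subgroup.center Q := by
    intro f hf
    rcases hmem f hf with h | h
    · exact hWc h
    · have h2 := mul_mem (Subgroup.mem_center_iff.2 hzc) (hWc h)
      rwa [mul_inv_cancel_left] at h2
  -- all commutators lie in `W`
  have hB : ∀ a b : Q, ⁅a, b⁆ ∈ W := by
    intro a b
    rcases hmem _ (hcmΦ a b) with h | h
    · exact h
    · exfalso
      apply hne
      have e1 : ⁅a, b * b⁆ = 1 :=
        commutatorElement_eq_one_iff_mul_comm.2 (Subgroup.mem_center_iff.1 (hΦc (hsq b)) a)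
      rw [comm_mul_central a b b (hΦc (hcmΦ a b)), hsplit h h, hW2 _ h, mul_one] at e1
      exact e1
  let S : Subgroup Q :=
    { carrier := {x | x * x ∈ W}
      one_mem' := by show (1 : Q) * 1 ∈ W; rw [mul_one]; exact W.one_mem
      mul_mem' := fun {a b} ha hb => by
        show a * b * (a * b) ∈ W
        rw [sq_mul_central a b (hWc (hB b a))]
        exact W.mul_mem (W.mul_mem (hB b a) ha) hb
      inv_mem' := fun {a} ha => by
        show a⁻¹ * a⁻¹ ∈ W
        rw [← mul_inv_rev]; exact W.inv_mem ha }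
  have hΦS : Φ ≤ S := by
    intro f hf
    show f * f ∈ W
    rcases hmem f hf with h | h
    · exact W.mul_mem h h
    · rw [hsplit h h]; exact W.mul_mem hzz (W.mul_mem h h)
  rcases L.invariant S hΦS (fun x hx => by
    show ρ x * ρ x ∈ W
    rw [← map_mul]; exact hρW _ hx) with hS | hS
  · have h2 : S.index = 2 := by
      rw [Subgroup.index_eq_two_iff]
      refine ⟨y, fun b => ?_⟩
      rcases Classical.em (b ∈ S) with hb | hb
      · exact Or.inr ⟨hb, fun h => hy ((S.mul_mem_cancel_left hb).1 h)⟩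
      · refine Or.inl ⟨?_, hb⟩
        show b * y * (b * y) ∈ W
        have hb' : z⁻¹ * (b * b) ∈ W := (hmem _ (hsq b)).resolve_left hb
        rw [sq_mul_central b y (hWc (hB y b)), mul_assoc, hsplit hb' hyz]
        exact W.mul_mem (hB y b) (W.mul_mem hzz (W.mul_mem hb' hyz))
    rw [hS, L.index] at h2
    omega
  · exact hy (show y ∈ S from hS ▸ Subgroup.mem_top y)

end Cfsg.Agent.TwoAut.OrderFive
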