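import Cfsg.Agent.TwoAut.OrderFiveBasic

/-!
# Central layers of 2-groups with a fixed-point-free automorphism of order five
-/

set_option autoImplicit false
set_option linter.all false

namespace Cfsg.Agent.TwoAut.OrderFive

open scoped commutatorElement

universe u

variable {Q : Type u} [Group Q] [Finite Q]

omit [Finite Q] in
/-- The square of a product when commutators are central. -/
theorem sq_mul_central (x y : Q) (hc : ⁅y, x⁆ ∈ Subgroup.center Q) :
    (x * y) * (x * y) = ⁅y, x⁆ * (x * x) * (y * y) := by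
  have hcc := Subgroup.mem_center_iff.1 hc x
  have hyx : y * x = ⁅y, x⁆ * (x * y) := by simp [commutatorElement_def, mul_assoc]
  calc (x * y) * (x * y) = x * (y * x) * y := by group
    _ = (x * ⁅y, x⁆) * (x * y) * y := by rw [hyx]; group
    _ = ⁅y, x⁆ * x * (x * y) * y := by rw [hcc]
    _ = _ := by group

omit [Finite Q] in
/-- Commutator with a product when commutators are central. -/
theorem comm_mul_central (z x y : Q) (hc : ⁅z, y⁆ ∈ Subgroup.center Q) :
    ⁅z, x * y⁆ = ⁅z, x⁆ * ⁅z, y⁆ := by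
  have hx := Subgroup.mem_center_iff.1 hc x
  calc ⁅z, x * y⁆ = ⁅z, x⁆ * (x * ⁅z, y⁆ * x⁻¹) := by simp [commutatorElement_def, mul_assoc]
    _ = ⁅z, x⁆ * ⁅z, y⁆ := by rw [hx, mul_inv_cancel_right]

omit [Finite Q] in
/-- A quotient in which all squares vanish is commutative. -/
theorem comm_mem_of_sq {F : Subgroup Q} [F.Normal] (hsq : ∀ x, x * x ∈ F) (x y : Q) :
    ⁅x, y⁆ ∈ F := by
  have h2 : ∀ a : Q ⧸ F, a * a = 1 := fun a => QuotientGroup.induction_on a fun w =>
    (QuotientGroup.eq_one_iff _).2 (hsq w)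
  rw [← QuotientGroup.eq_one_iff (N := F)]
  show QuotientGroup.mk' F ⁅x, y⁆ = 1
  rw [map_commutatorElement, commutatorElement_eq_one_iff_mul_comm]
  have hi : ∀ a : Q ⧸ F, a⁻¹ = a := fun a => inv_eq_of_mul_eq_one_right (h2 a)
  rw [← hi (QuotientGroup.mk' F x * QuotientGroup.mk' F y), mul_inv_rev, hi, hi]

/-- The hypotheses of a layer: `F` has index 16 and `ρ` of order five acts without fixed points
on the quotient. -/
structure Layer (F : Subgroup Q) (ρ : MulAut Q) : Prop where
  pgroup : IsPGroup 2 Q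
  index : F.index = 16
  five : ρ ^ 5 = 1
  stable : ∀ x, x ∈ F → ρ x ∈ F
  fpf : ∀ x, x⁻¹ * ρ x ∈ F → x ∈ F

variable {F : Subgroup Q} {ρ : MulAut Q}

theorem Layer.map_eq (L : Layer F ρ) : F.map ρ.toMonoidHom = F := by
  refine Subgroup.eq_of_le_of_card_ge (by rintro _ ⟨x, hx, rfl⟩; exact L.stable x hx) ?_
  rw [← Nat.card_congr (F.equivMapOfInjective ρ.toMonoidHom ρ.injective).toEquiv]

/-- The induced automorphism of the quotient. -/
def Layer.bar [F.Normal] (L : Layer F ρ) : MulAut (Q ⧸ F) := QuotientGroup.congr F F ρ L.map_eq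

theorem Layer.bar_mk [F.Normal] (L : Layer F ρ) (x : Q) :
    L.bar (QuotientGroup.mk x) = QuotientGroup.mk (ρ x) := rfl

theorem Layer.bar_five [F.Normal] (L : Layer F ρ) : L.bar ^ 5 = 1 := by
  refine MulEquiv.ext fun v => QuotientGroup.induction_on v fun x => ?_
  show L.bar (L.bar (L.bar (L.bar (L.bar (QuotientGroup.mk x))))) = QuotientGroup.mk x
  simp only [L.bar_mk]
  exact congrArg _ (DFunLike.congr_fun L.five x)

theorem Layer.bar_fix [F.Normal] (L : Layer F ρ) : ∀ v, L.bar v = v → v = 1 := by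
  intro v
  refine QuotientGroup.induction_on v fun x hx => ?_
  rw [L.bar_mk] at hx
  exact (QuotientGroup.eq_one_iff x).2 (L.fpf x (QuotientGroup.eq.1 hx.symm))

theorem Layer.card_quot (L : Layer F ρ) : Nat.card (Q ⧸ F) = 16 := by
  rw [← Subgroup.index_eq_card]; exact L.index

/-- Invariant subgroups above `F`. -/
theorem Layer.invariant [F.Normal] (L : Layer F ρ) (K : Subgroup Q) (hFK : F ≤ K)
    (hK : ∀ x ∈ K, ρ x ∈ K) : K = F ∨ K = ⊤ := by
  rcases invariant_bot_or_top (L.pgroup.to_quotient F) L.card_quot L.bar L.bar_five L.bar_fix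
    (K.map (QuotientGroup.mk' F)) (by rintro _ ⟨x, hx, rfl⟩; exact ⟨ρ x, hK x hx, rfl⟩) with h | h
  · left
    refine le_antisymm (fun x hx => ?_) hFK
    rw [Subgroup.map_eq_bot_iff, QuotientGroup.ker_mk'] at h
    exact h hx
  · right
    rw [← Subgroup.comap_map_eq_self (f := QuotientGroup.mk' F) (H := K)
      (by rw [QuotientGroup.ker_mk']; exact hFK), h, Subgroup.comap_top]

theorem Layer.not_mem_mul (L : Layer F ρ) {x : Q} (hx : x ∉ F) : x⁻¹ * ρ x ∉ F :=
  fun h => hx (L.fpf x h)

/-- The squaring map takes at most one non-trivial value. -/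
theorem card_le_two [F.Normal] (L : Layer F ρ) (hFc : F ≤ Subgroup.center Q)
    (hF2 : ∀ f ∈ F, f * f = 1) (hsq : ∀ x, x * x ∈ F)
    (hgen : F ≤ Subgroup.closure (Set.range fun x : Q => x * x))
    (hρF : ∀ f ∈ F, ρ f = f) (γ : MulAut Q) (h3 : γ ^ 3 = 1) (hγF : ∀ f ∈ F, γ f = f)
    (hγ : ∃ x, x⁻¹ * γ x ∉ F) : Nat.card F ≤ 2 := by
  classical
  haveI : Fact (Nat.Prime 5) := ⟨by norm_num⟩
  haveI : Fact (Nat.Prime 3) := ⟨by norm_num⟩
  have hcm := comm_mem_of_sq hsq
  have hρsq : ∀ x, ρ x * ρ x = x * x := fun x => by rw [← map_mul]; exact hρF _ (hsq x)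
  have hγsq : ∀ x, γ x * γ x = x * x := fun x => by rw [← map_mul]; exact hγF _ (hsq x)
  have hmod : ∀ {x y : Q}, x⁻¹ * y ∈ F → x * x = y * y := by
    intro x y h
    have : y = x * (x⁻¹ * y) := by group
    have hc := Subgroup.mem_center_iff.1 (hFc h) x
    conv_rhs => rw [this]
    calc x * x = x * x * ((x⁻¹ * y) * (x⁻¹ * y)) := by rw [hF2 _ h, mul_one]
      _ = x * (x * (x⁻¹ * y)) * (x⁻¹ * y) := by group
      _ = x * ((x⁻¹ * y) * x) * (x⁻¹ * y) := by rw [hc]
      _ = _ := by group
  -- the squaring map on the quotient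
  let qbar : Q ⧸ F → Q := Quotient.lift (fun x => x * x) (fun x y h =>
    hmod (QuotientGroup.leftRel_apply.1 h))
  have hq : ∀ x : Q, qbar (QuotientGroup.mk x) = x * x := fun x => rfl
  have hγmap : F.map γ.toMonoidHom = F := by
    refine Subgroup.eq_of_le_of_card_ge
      (by rintro _ ⟨x, hx, rfl⟩; show γ x ∈ F; rw [hγF x hx]; exact hx) ?_
    rw [← Nat.card_congr (F.equivMapOfInjective γ.toMonoidHom γ.injective).toEquiv]
  let γb : MulAut (Q ⧸ F) := QuotientGroup.congr F F γ hγmap
  have hγb3 : γb ^ 3 = 1 := by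
    refine MulEquiv.ext fun v => QuotientGroup.induction_on v fun x => ?_
    show γb (γb (γb (QuotientGroup.mk x))) = QuotientGroup.mk x
    exact congrArg QuotientGroup.mk (DFunLike.congr_fun h3 x)
  have hqρ : ∀ v, qbar (L.bar v) = qbar v := fun v => QuotientGroup.induction_on v fun x => hρsq x
  have hqγ : ∀ v, qbar (γb v) = qbar v := fun v => QuotientGroup.induction_on v fun x => hγsq x
  -- three values are impossible
  have three : ∀ x y w : Q, x ∉ F → y ∉ F → w ∉ F →
      x * x ≠ y * y → x * x ≠ w * w → y * y ≠ w * w → False := by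
    intro x y w hx hy hw hxy hxw hyw
    let S : Q → Type u := fun a => {v : Q ⧸ F // v ≠ 1 ∧ qbar v = a}
    have hSfix : ∀ x : Q, x ∉ F → 5 ≤ Nat.card (S (x * x)) := by
      intro x hx
      let e : Equiv.Perm (S (x * x)) := (MulAut.toPerm _ L.bar).subtypePerm
        (fun v => by
          show (L.bar v ≠ 1 ∧ _) ↔ (v ≠ 1 ∧ _)
          rw [ne_eq, EmbeddingLike.map_eq_one_iff, show qbar ((MulAut.toPerm _ L.bar) v) = qbar v from hqρ v])
      have he : e ^ 5 = 1 := by
        refine Equiv.ext fun v => Subtype.ext ?_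
        show L.bar (L.bar (L.bar (L.bar (L.bar v.1)))) = v.1
        exact DFunLike.congr_fun L.bar_five v.1
      have hm := perm_modEq_fixed 5 e he
      haveI : IsEmpty {a // e a = a} :=
        ⟨fun a => a.1.2.1 (L.bar_fix a.1.1 (congrArg Subtype.val a.2))⟩
      rw [Nat.card_of_isEmpty (α := {a // e a = a})] at hm
      have hpos : 0 < Nat.card (S (x * x)) := by
        haveI : Nonempty (S (x * x)) :=
          ⟨⟨QuotientGroup.mk x, fun h => hx ((QuotientGroup.eq_one_iff x).1 h), hq x⟩⟩
        exact Nat.card_pos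
      exact Nat.le_of_dvd hpos (Nat.modEq_zero_iff_dvd.1 hm)
    have hSγ : ∀ a, Nat.card (S a) = 5 → 2 ≤ Nat.card {v : S a // γb v.1 = v.1} := by
      intro a ha
      let e : Equiv.Perm (S a) := (MulAut.toPerm _ γb).subtypePerm
        (fun v => by
          show (γb v ≠ 1 ∧ _) ↔ (v ≠ 1 ∧ _)
          rw [ne_eq, EmbeddingLike.map_eq_one_iff, show qbar ((MulAut.toPerm _ γb) v) = qbar v from hqγ v])
      have he : e ^ 3 = 1 := by
        refine Equiv.ext fun v => Subtype.ext ?_
        show γb (γb (γb v.1)) = v.1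
        exact DFunLike.congr_fun hγb3 v.1
      have hm := perm_modEq_fixed 3 e he
      rw [ha] at hm
      have heq : Nat.card {v : S a // e v = v} = Nat.card {v : S a // γb v.1 = v.1} :=
        Nat.card_congr (Equiv.subtypeEquivRight fun v => Subtype.ext_iff)
      rw [heq] at hm
      by_contra hcon
      have : Nat.card {v : S a // γb v.1 = v.1} = 0 ∨
          Nat.card {v : S a // γb v.1 = v.1} = 1 := by omega
      rcases this with h | h <;> rw [h] at hm <;> simp [Nat.ModEq] at hm
    let T : Type u := {v : Q ⧸ F // v ≠ 1}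
    have hsum : Nat.card (S (x * x)) + Nat.card (S (y * y)) + Nat.card (S (w * w)) ≤ 15 := by
      have hT : Nat.card T = 15 := by
        haveI : Fintype (Q ⧸ F) := Fintype.ofFinite _
        rw [Nat.card_eq_fintype_card, Fintype.card_subtype_compl, Fintype.card_subtype_eq,
          ← Nat.card_eq_fintype_card, L.card_quot]
      rw [← hT, ← Nat.card_sum, ← Nat.card_sum]
      refine Nat.card_le_card_of_injective
        (Sum.elim (Sum.elim (fun v => (⟨v.1, v.2.1⟩ : T)) (fun v => ⟨v.1, v.2.1⟩))
          (fun v => ⟨v.1, v.2.1⟩)) ?_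
      rintro ((a | a) | a) ((b | b) | b) h <;>
        replace h := congrArg Subtype.val h <;>
        simp only [Sum.elim_inl, Sum.elim_inr] at h <;>
        first
          | exact absurd (a.2.2.symm.trans ((congrArg qbar h).trans b.2.2)) hxy
          | exact absurd (a.2.2.symm.trans ((congrArg qbar h).trans b.2.2)) hxy.symm
          | exact absurd (a.2.2.symm.trans ((congrArg qbar h).trans b.2.2)) hxw
          | exact absurd (a.2.2.symm.trans ((congrArg qbar h).trans b.2.2)) hxw.symm
          | exact absurd (a.2.2.symm.trans ((congrArg qbar h).trans b.2.2)) hyw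
          | exact absurd (a.2.2.symm.trans ((congrArg qbar h).trans b.2.2)) hyw.symm
          | exact congrArg _ (congrArg _ (Subtype.ext h))
          | exact congrArg _ (Subtype.ext h)
    have h5x := hSfix x hx
    have h5y := hSfix y hy
    have h5w := hSfix w hw
    let C : Subgroup (Q ⧸ F) := γb.toMonoidHom.eqLocus (MonoidHom.id _)
    let fx : Q → Type u := fun a => {v : S a // γb v.1 = v.1}
    have hC : Nat.card (fx (x * x)) + Nat.card (fx (y * y)) + Nat.card (fx (w * w)) ≤ Nat.card C := by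
      rw [← Nat.card_sum, ← Nat.card_sum]
      refine Nat.card_le_card_of_injective
        (Sum.elim (Sum.elim (fun v => (⟨v.1.1, v.2⟩ : C)) (fun v => ⟨v.1.1, v.2⟩))
          (fun v => ⟨v.1.1, v.2⟩)) ?_
      rintro ((a | a) | a) ((b | b) | b) h <;>
        replace h := congrArg Subtype.val h <;>
        simp only [Sum.elim_inl, Sum.elim_inr] at h <;>
        first
          | exact absurd (a.1.2.2.symm.trans ((congrArg qbar h).trans b.1.2.2)) hxy
          | exact absurd (a.1.2.2.symm.trans ((congrArg qbar h).trans b.1.2.2)) hxy.symm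
          | exact absurd (a.1.2.2.symm.trans ((congrArg qbar h).trans b.1.2.2)) hxw
          | exact absurd (a.1.2.2.symm.trans ((congrArg qbar h).trans b.1.2.2)) hxw.symm
          | exact absurd (a.1.2.2.symm.trans ((congrArg qbar h).trans b.1.2.2)) hyw
          | exact absurd (a.1.2.2.symm.trans ((congrArg qbar h).trans b.1.2.2)) hyw.symm
          | exact congrArg _ (congrArg _ (Subtype.ext (Subtype.ext h)))
          | exact congrArg _ (Subtype.ext (Subtype.ext h))
    have g1 := hSγ (x * x) (by omega)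
    have g2 := hSγ (y * y) (by omega)
    have g3 := hSγ (w * w) (by omega)
    have hC6 : 6 ≤ Nat.card C := by
      simp only [fx] at hC
      omega
    have hV := L.pgroup.to_quotient F
    obtain ⟨i, hi⟩ := (hV.to_subgroup C).exists_card_eq
    have hle := Subgroup.card_le_card_group C
    rw [L.card_quot, hi] at hle
    have hm := perm_modEq_fixed 3 (MulAut.toPerm _ γb) (by rw [← map_pow, hγb3, map_one])
    change Nat.card (Q ⧸ F) ≡ Nat.card C [MOD 3] at hm
    rw [L.card_quot, hi] at hm
    rw [hi] at hC6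
    have hi4 : i ≤ 4 := by
      by_contra hi4
      have : 2 ^ 5 ≤ 2 ^ i := Nat.pow_le_pow_right (by norm_num) (by omega)
      omega
    have hi16 : i = 4 := by interval_cases i <;> simp_all [Nat.ModEq]
    subst hi16
    have htop := Subgroup.eq_top_of_card_eq C (by rw [L.card_quot, hi]; rfl)
    obtain ⟨v, hv⟩ := hγ
    have hvC : (QuotientGroup.mk v : Q ⧸ F) ∈ C := htop ▸ Subgroup.mem_top _
    exact hv (QuotientGroup.eq.1 (Eq.symm hvC))
  by_contra hcon
  -- two distinct non-trivial values
  obtain ⟨x, y, hx, hy, hxy⟩ : ∃ x y : Q, x * x ≠ 1 ∧ y * y ≠ 1 ∧ x * x ≠ y * y := by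
    by_contra hno
    push Not at hno
    apply hcon
    by_cases h0 : ∀ x : Q, x * x = 1
    · have : F = ⊥ := eq_bot_iff.2 (hgen.trans ((Subgroup.closure_le _).2
        (by rintro _ ⟨x, rfl⟩; exact Subgroup.mem_bot.2 (h0 x))))
      rw [this, Subgroup.card_bot]; norm_num
    · push Not at h0
      obtain ⟨x, hx⟩ := h0
      have hle : F ≤ Subgroup.zpowers (x * x) := hgen.trans ((Subgroup.closure_le _).2 (by
        rintro _ ⟨y, rfl⟩
        by_cases hy : y * y = 1
        · simp only [SetLike.mem_coe, hy]; exact one_mem _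
        · simp only [SetLike.mem_coe, ← hno x y hx hy]; exact Subgroup.mem_zpowers _))
      refine (Subgroup.card_le_of_le hle).trans ?_
      rw [Nat.card_zpowers]
      exact orderOf_le_of_pow_eq_one two_pos (by rw [sq]; exact hF2 _ (hsq x))
  have hxF : x ∉ F := fun h => hx (hF2 x h)
  have hyF : y ∉ F := fun h => hy (hF2 y h)
  have two : ∀ g, g ∉ F → g * g = x * x ∨ g * g = y * y := by
    intro g hg
    by_contra hno
    push Not at hno
    exact three x y g hxF hyF hg hxy hno.1.symm hno.2.symm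
  -- the relation along an orbit of `ρ`
  set x1 := ρ x with hx1
  set x2 := ρ x1 with hx2
  set x3 := ρ x2 with hx3
  set x4 := ρ x3 with hx4
  set a := x * x with ha
  set b := (x * x1) * (x * x1) with hb
  set c := (x * x2) * (x * x2) with hc
  have hinvF : ∀ {g : Q}, x * g ∈ F → x⁻¹ * g ∈ F := fun {g} h => by
    have : x⁻¹ * g = (x * x)⁻¹ * (x * g) := by group
    rw [this]; exact F.mul_mem (F.inv_mem (hsq x)) h
  have hbF : x * x1 ∉ F := fun h => L.not_mem_mul hxF (hinvF h)
  have hcF : x * x2 ∉ F := fun h => by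
    have h2 := hinvF h
    -- a point fixed by `ρ²` is fixed by `ρ`
    have h4 : x⁻¹ * x4 ∈ F := by
      have h3 := L.stable _ (L.stable _ h2)
      simp only [map_mul, map_inv] at h3
      rw [← hx1, ← hx2, ← hx3, ← hx4] at h3
      have := F.mul_mem h2 h3
      rwa [show x⁻¹ * x2 * (x2⁻¹ * x4) = x⁻¹ * x4 by group] at this
    have h5 := L.stable _ h4
    simp only [map_mul, map_inv] at h5
    rw [← hx1, show ρ x4 = x from DFunLike.congr_fun L.five x] at h5
    have := F.inv_mem h5
    rw [mul_inv_rev, inv_inv] at this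
    exact L.not_mem_mul hxF this
  have hfive : (x * x1 * x2) * (x3 * x4) ∈ F := by
    have h5 : ρ x4 = x := DFunLike.congr_fun L.five x
    rw [← QuotientGroup.eq_one_iff (N := F)]
    refine L.bar_fix _ ?_
    rw [L.bar_mk]
    simp only [map_mul]
    rw [← hx1, ← hx2, ← hx3, ← hx4, h5]
    show QuotientGroup.mk' F _ = QuotientGroup.mk' F _
    have hcomm : ∀ u v : Q, QuotientGroup.mk' F u * QuotientGroup.mk' F v =
        QuotientGroup.mk' F v * QuotientGroup.mk' F u := fun u v => by
      rw [← commutatorElement_eq_one_iff_mul_comm, ← map_commutatorElement]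
      exact (QuotientGroup.eq_one_iff _).2 (hcm u v)
    have e : (x1 * x2 * x3) * (x4 * x) = (x1 * x2 * x3 * x4) * x := by group
    have e' : (x * x1 * x2) * (x3 * x4) = x * (x1 * x2 * x3 * x4) := by group
    rw [e, e', map_mul, map_mul]
    exact hcomm _ _
  have hrel : c * a = b := by
    have h1 : (x * x1 * x2) * (x * x1 * x2) = (x3 * x4) * (x3 * x4) := by
      refine hmod ?_
      have h1 := F.inv_mem (hsq (x * x1 * x2))
      have h2 := F.mul_mem h1 hfive
      rwa [show ((x * x1 * x2) * (x * x1 * x2))⁻¹ * ((x * x1 * x2) * (x3 * x4)) =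
        (x * x1 * x2)⁻¹ * (x3 * x4) by group] at h2
    have h34 : (x3 * x4) * (x3 * x4) = b := by
      have : x3 * x4 = ρ (ρ (ρ (x * x1))) := by simp only [map_mul]; rw [hx4, hx3, hx2, hx1]
      rw [this, hρsq, hρsq, hρsq]
    have h12 : (x1 * x2) * (x1 * x2) = b := by
      have : x1 * x2 = ρ (x * x1) := by simp only [map_mul]; rw [hx2, hx1]
      rw [this, hρsq]
    have hq1 : x1 * x1 = a := hρsq x
    have hq2 : x2 * x2 = a := (hρsq x1).trans hq1
    rw [h34, sq_mul_central (x * x1) x2 (hFc (hcm _ _)), hq2,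
      comm_mul_central x2 x x1 (hFc (hcm _ _))] at h1
    have e1 : ⁅x2, x⁆ = c := by
      have h := sq_mul_central x x2 (hFc (hcm _ _))
      rw [hq2] at h
      calc ⁅x2, x⁆ = ⁅x2, x⁆ * (a * a) := by rw [hF2 a (hsq x), mul_one]
        _ = ⁅x2, x⁆ * a * a := (mul_assoc _ _ _).symm
        _ = c := h.symm
    have e2 : ⁅x2, x1⁆ = b := by
      have h := sq_mul_central x1 x2 (hFc (hcm _ _))
      rw [hq2, hq1, h12] at h
      calc ⁅x2, x1⁆ = ⁅x2, x1⁆ * (a * a) := by rw [hF2 a (hsq x), mul_one]
        _ = ⁅x2, x1⁆ * a * a := (mul_assoc _ _ _).symm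
        _ = b := h.symm
    rw [e1, e2] at h1
    calc c * a = c * (b * b) * a := by rw [hF2 b (hsq _), mul_one]
      _ = c * b * b * a := by group
      _ = b := h1
  rcases two _ hbF with h1 | h1 <;> rcases two _ hcF with h2 | h2 <;>
    rw [← hb] at h1 <;> rw [← hc] at h2 <;> rw [h1, h2] at hrel
  · exact hx (by simpa using hrel)
  · exact hy (by simpa using hrel)
  · exact hy (by rw [← hrel]; exact hF2 a (hsq x))
  · exact hx (by simpa using hrel)

end Cfsg.Agent.TwoAut.OrderFive
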