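import Cfsg.Prelude.Def_CaseTheorems
import Cfsg.Agent.TwoAut.CentralSquares

/-!
# Sectional rank five from a free involution
-/

set_option autoImplicit false
set_option linter.all false

namespace Cfsg.Agent.TwoAut.OrderFive

open Cfsg
open scoped commutatorElement

universe u

/-- An involution inverting a fixed-point-free element of order five on a group of order 16. -/
theorem inverted_fixed {Y : Type u} [Group Y] [Finite Y] (M : Subgroup Y) [M.Normal]
    (hcom : ∀ a ∈ M, ∀ b ∈ M, a * b = b * a) (hM : Nat.card M = 16) (r u : Y) (h5 : r ^ 5 = 1)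
    (hur : u * r * u⁻¹ = r⁻¹) (hfix : ∀ a ∈ M, r * a * r⁻¹ = a → a = 1) :
    Nat.card ↥(M ⊓ Subgroup.centralizer {u}) ≤ 4 := by
  letI : CommGroup M :=
    { (inferInstance : Group M) with mul_comm := fun a b => Subtype.ext (hcom a a.2 b b.2) }
  let ρ : MulAut M := MulAut.conjNormal r
  let σ : MulAut M := MulAut.conjNormal u
  let C : Subgroup M := σ.toMonoidHom.eqLocus (MonoidHom.id M)
  have h := card_fixed_sq_le ρ σ (by
      show (MulAut.conjNormal r : MulAut M) ^ 5 = 1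
      rw [← map_pow, h5, map_one])
    (fun v hv => Subtype.ext (hfix v v.2 (by
      have := congrArg Subtype.val hv
      rwa [MulAut.conjNormal_apply] at this)))
    (fun x => by
      have e : σ * ρ = ρ⁻¹ * σ := by
        show MulAut.conjNormal u * MulAut.conjNormal r = (MulAut.conjNormal r)⁻¹ * MulAut.conjNormal u
        rw [← map_inv, ← map_mul, ← map_mul, ← hur, inv_mul_cancel_right]
      exact DFunLike.congr_fun e x) C (fun x => Iff.rfl)
  rw [hM] at h
  have hC : Nat.card C ≤ 4 := by nlinarith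
  refine le_trans (Nat.card_le_card_of_injective
    (fun a : ↥(M ⊓ Subgroup.centralizer {u}) => (⟨⟨a.1, a.2.1⟩, Subtype.ext (by
      show ((MulAut.conjNormal u (⟨a.1, a.2.1⟩ : M) : M) : Y) = a.1
      rw [MulAut.conjNormal_apply]
      show u * a.1 * u⁻¹ = a.1
      rw [← Subgroup.mem_centralizer_singleton_iff.1 a.2.2, mul_inv_cancel_right])⟩ : C))
    (fun a b h => Subtype.ext (congrArg (fun c : C => ((c : M) : Y)) h))) hC

theorem card_mul_rel {G : Type u} [Group G] {A B : Subgroup G} (h : A ≤ B) :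
    Nat.card A * A.relIndex B = Nat.card B := by
  have := Subgroup.relIndex_mul_relIndex ⊥ A B bot_le h
  rwa [Subgroup.relIndex_bot_left, Subgroup.relIndex_bot_left] at this

/-- Two central layers of rank four force sectional rank five. -/
theorem rank_five {Y : Type u} [Group Y] [Finite Y] (Q F : Subgroup Y) [Q.Normal] [F.Normal]
    (hFQ : F ≤ Q) (hFc : ∀ f ∈ F, ∀ q ∈ Q, f * q = q * f) (hF2 : ∀ f ∈ F, f * f = 1)
    (hsq : ∀ q ∈ Q, q * q ∈ F) (hF : Nat.card F = 16) (hV : F.relIndex Q = 16)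
    (r u : Y) (h5 : r ^ 5 = 1) (hur : u * r * u⁻¹ = r⁻¹) (hu : u ∉ Q) (huu : u * u ∈ Q)
    (hfF : ∀ f ∈ F, r * f * r⁻¹ = f → f = 1)
    (hfV : ∀ q ∈ Q, q⁻¹ * (r * q * r⁻¹) ∈ F → q ∈ F) : ¬ SectionalPRankLE 2 4 Y := by
  classical
  intro h4
  have hu2 : u * u = 1 := by
    have h1 : r * (u * u) * r⁻¹ = u * u := by
      have e1 : u * r = r⁻¹ * u := by rw [← hur, inv_mul_cancel_right]
      have e2 : r * u = u * r⁻¹ := by
        have h2 : u * r⁻¹ * u⁻¹ = r := by
          have := congrArg (fun w => w⁻¹) hur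
          simpa [mul_inv_rev, mul_assoc] using this
        calc r * u = u * r⁻¹ * u⁻¹ * u := by rw [h2]
          _ = u * r⁻¹ := inv_mul_cancel_right _ _
      calc r * (u * u) * r⁻¹ = (r * u) * u * r⁻¹ := by group
        _ = u * (r⁻¹ * u) * r⁻¹ := by rw [e2]; group
        _ = u * (u * r) * r⁻¹ := by rw [← e1]
        _ = u * u := by group
    have h2 : u * u ∈ F := hfV _ huu (by rw [h1, inv_mul_cancel]; exact F.one_mem)
    exact hfF _ h2 h1
  -- commutators of `Q` lie in `F`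
  have hQcomm : ∀ a ∈ Q, ∀ b ∈ Q, ⁅a, b⁆ ∈ F := by
    intro a ha b hb
    exact comm_mem_of_sq (F := F.subgroupOf Q) (fun x => hsq x x.2) ⟨a, ha⟩ ⟨b, hb⟩
  let π : Y →* Y ⧸ F := QuotientGroup.mk' F
  let V : Subgroup (Y ⧸ F) := Q.map π
  haveI hVn : V.Normal := (inferInstance : Q.Normal).map π (QuotientGroup.mk'_surjective F)
  have hVcom : ∀ a ∈ V, ∀ b ∈ V, a * b = b * a := by
    rintro _ ⟨a, ha, rfl⟩ _ ⟨b, hb, rfl⟩
    rw [← commutatorElement_eq_one_iff_mul_comm, ← map_commutatorElement]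
    exact (QuotientGroup.eq_one_iff _).2 (hQcomm a ha b hb)
  have hcardmap : ∀ K : Subgroup Y, Nat.card (K.map π) = F.relIndex K := by
    intro K
    rw [← Subgroup.relIndex_ker K π, QuotientGroup.ker_mk']
  have hV16 : Nat.card V = 16 := by rw [hcardmap, hV]
  have hFix : Nat.card ↥(F ⊓ Subgroup.centralizer {u}) ≤ 4 :=
    inverted_fixed F (fun a ha b hb => hFc a ha b (hFQ hb)) hF r u h5 hur hfF
  have hVix : Nat.card ↥(V ⊓ Subgroup.centralizer {π u}) ≤ 4 := by
    refine inverted_fixed V hVcom hV16 (π r) (π u) (by rw [← map_pow, h5, map_one])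
      (by rw [← map_inv, ← map_mul, ← map_mul, hur, map_inv]) ?_
    rintro _ ⟨q, hq, rfl⟩ h
    rw [← map_inv, ← map_mul, ← map_mul] at h
    exact (QuotientGroup.eq_one_iff _).2 (hfV q hq (QuotientGroup.eq.1 h.symm))
  -- the elements inverted by `u`
  let D : Set Y := {d | ∃ q ∈ Q, d = q⁻¹ * (u * q * u⁻¹)}
  have hDQ : ∀ d ∈ D, d ∈ Q := by
    rintro _ ⟨q, hq, rfl⟩
    exact Q.mul_mem (Q.inv_mem hq) ((inferInstance : Q.Normal).conj_mem q hq u)
  have huinv : u⁻¹ = u := inv_eq_of_mul_eq_one_right hu2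
  have hDinv : ∀ d ∈ D, u * d * u⁻¹ = d⁻¹ := by
    rintro _ ⟨q, hq, rfl⟩
    calc u * (q⁻¹ * (u * q * u⁻¹)) * u⁻¹ = u * q⁻¹ * u * q * (u⁻¹ * u⁻¹) := by group
      _ = u * q⁻¹ * u * q := by rw [huinv, hu2, mul_one]
      _ = u * q⁻¹ * u⁻¹ * q := by rw [huinv]
      _ = _ := by group
  let H₁ : Subgroup Y := Subgroup.closure ((F : Set Y) ∪ D)
  have hFH₁ : F ≤ H₁ := fun f hf => Subgroup.subset_closure (Or.inl hf)
  have hH₁Q : H₁ ≤ Q := (Subgroup.closure_le _).2 (Set.union_subset hFQ hDQ)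
  have hH₁ : 64 ≤ Nat.card H₁ := by
    letI : CommGroup V :=
      { (inferInstance : Group V) with mul_comm := fun a b => Subtype.ext (hVcom a a.2 b b.2) }
    let σ : MulAut V := MulAut.conjNormal (π u)
    let δ : V →* V := MonoidHom.mk' (fun v => v⁻¹ * σ v) (fun a b => by
      rw [map_mul, mul_inv, mul_mul_mul_comm])
    have hker : Nat.card δ.ker ≤ 4 := by
      refine le_trans (Nat.card_le_card_of_injective
        (fun a : δ.ker => (⟨a.1.1, a.1.2, Subgroup.mem_centralizer_singleton_iff.2 (by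
          have h := MonoidHom.mem_ker.1 a.2
          have h' : σ a.1 = a.1 := (inv_mul_eq_one.1 h).symm
          have h'' := congrArg Subtype.val h'
          rw [MulAut.conjNormal_apply] at h''
          exact (mul_inv_eq_iff_eq_mul.1 h'').symm)⟩ : ↥(V ⊓ Subgroup.centralizer {π u})))
        (fun a b h => Subtype.ext (Subtype.ext (congrArg (fun c : ↥(V ⊓ Subgroup.centralizer {π u}) => (c : Y ⧸ F)) h)))) hVix
    have hrange : Nat.card δ.range ≤ Nat.card (H₁.map π) := by
      refine Nat.card_le_card_of_injective (fun w => ⟨w.1.1, ?_⟩)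
        (fun a b h => Subtype.ext (Subtype.ext (congrArg Subtype.val h :)))
      obtain ⟨⟨_, q, hq, rfl⟩, hw⟩ := w.2
      refine ⟨q⁻¹ * (u * q * u⁻¹), Subgroup.subset_closure (Or.inr ⟨q, hq, rfl⟩), ?_⟩
      rw [← hw]
      simp [δ, σ]
    have h1 := δ.ker.card_mul_index
    rw [Subgroup.index_ker, hV16] at h1
    have h2 : 4 ≤ Nat.card δ.range := by nlinarith
    have h3 : Nat.card F * F.relIndex H₁ = Nat.card H₁ := card_mul_rel hFH₁
    rw [hF, ← hcardmap] at h3
    omega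
  let N₀ : Subgroup Y := F ⊓ Subgroup.centralizer {u}
  have hN₀ : ∀ n, n ∈ N₀ ↔ n ∈ F ∧ n * u = u * n := fun n => by
    simp [N₀, Subgroup.mem_centralizer_singleton_iff]
  let H : Subgroup Y := Subgroup.closure (insert u ((F : Set Y) ∪ D))
  have hH₁H : H₁ ≤ H := Subgroup.closure_mono (Set.subset_insert _ _)
  have huH : u ∈ H := Subgroup.subset_closure (Set.mem_insert _ _)
  have hH : 128 ≤ Nat.card H := by
    have hne : H₁ ≠ H := fun e => hu (hH₁Q (e ▸ huH))
    have h1 := card_mul_rel hH₁H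
    have h2 : H₁.relIndex H ≠ 1 := fun e =>
      hne (le_antisymm hH₁H (Subgroup.relIndex_eq_one.1 e))
    have h3 : H₁.relIndex H ≠ 0 := fun e => by
      rw [e, mul_zero] at h1; exact Nat.card_pos.ne h1
    nlinarith [show 2 ≤ H₁.relIndex H by omega]
  have hNH : N₀ ≤ H := fun n hn => hH₁H (hFH₁ hn.1)
  let N : Subgroup H := N₀.subgroupOf H
  -- `N` is central
  have hNc : ∀ n ∈ N₀, ∀ h ∈ H, n * h = h * n := by
    intro n hn h hh
    have hle : H ≤ Subgroup.centralizer {n} := by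
      refine (Subgroup.closure_le _).2 ?_
      rintro w (rfl | hw) <;> rw [SetLike.mem_coe, Subgroup.mem_centralizer_singleton_iff]
      · exact ((hN₀ n).1 hn).2.symm
      · have hwQ : w ∈ Q := by
          rcases hw with hw | hw
          · exact hFQ hw
          · exact hDQ w hw
        exact (hFc n hn.1 w hwQ).symm
    exact (Subgroup.mem_centralizer_singleton_iff.1 (hle hh)).symm
  haveI hNn : N.Normal := ⟨fun n hn g => by
    show (g : Y) * n * (g : Y)⁻¹ ∈ N₀
    rw [← hNc n hn g g.2, mul_inv_cancel_right]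
    exact hn⟩
  -- generators commute and square into `N₀`
  have hfix : ∀ g ∈ F, u * g * u⁻¹ = g → g ∈ N₀ := fun g hg h =>
    (hN₀ g).2 ⟨hg, (mul_inv_eq_iff_eq_mul.1 h).symm⟩
  have hgenc : ∀ a ∈ insert u ((F : Set Y) ∪ D), ∀ b ∈ insert u ((F : Set Y) ∪ D),
      ⁅a, b⁆ ∈ N₀ ∧ a * a ∈ N₀ := by
    have hone : (1 : Y) ∈ N₀ := N₀.one_mem
    have hsqN : ∀ a ∈ insert u ((F : Set Y) ∪ D), a * a ∈ N₀ := by
      rintro a (rfl | ha | ha)
      · rw [hu2]; exact hone
      · rw [hF2 a ha]; exact hone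
      · refine hfix _ (hsq a (hDQ a ha)) ?_
        rw [show u * (a * a) * u⁻¹ = (u * a * u⁻¹) * (u * a * u⁻¹) by group, hDinv a ha,
          ← mul_inv_rev]
        exact inv_eq_of_mul_eq_one_right (hF2 _ (hsq a (hDQ a ha)))
    have huF : ∀ f ∈ F, ⁅u, f⁆ ∈ N₀ := by
      intro f hf
      have hf' : u * f * u⁻¹ ∈ F := (inferInstance : F.Normal).conj_mem f hf u
      refine hfix _ (F.mul_mem hf' (F.inv_mem hf)) ?_
      rw [commutatorElement_def]
      have hc := hFc _ hf' f⁻¹ (Q.inv_mem (hFQ hf))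
      calc u * (u * f * u⁻¹ * f⁻¹) * u⁻¹ = u * (f⁻¹ * (u * f * u⁻¹)) * u⁻¹ := by rw [hc]
        _ = u * f⁻¹ * u * f * (u⁻¹ * u⁻¹) := by group
        _ = u * f⁻¹ * u⁻¹ * f := by rw [huinv, hu2, mul_one]
        _ = (u * f * u⁻¹)⁻¹ * f := by group
        _ = (u * f * u⁻¹) * f⁻¹ := by
          rw [inv_eq_of_mul_eq_one_right (hF2 _ hf'), inv_eq_of_mul_eq_one_right (hF2 _ hf)]
    have huD : ∀ d ∈ D, ⁅u, d⁆ ∈ N₀ := by
      intro d hd
      rw [commutatorElement_def, hDinv d hd, ← mul_inv_rev]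
      exact N₀.inv_mem (hsqN d (Or.inr (Or.inr hd)))
    have hDD : ∀ d ∈ D, ∀ e ∈ D, ⁅d, e⁆ ∈ N₀ := by
      intro d hd e he
      have hc := hQcomm d (hDQ d hd) e (hDQ e he)
      refine hfix _ hc ?_
      rw [show u * ⁅d, e⁆ * u⁻¹ = ⁅u * d * u⁻¹, u * e * u⁻¹⁆ by
        simp only [commutatorElement_def]; group, hDinv d hd, hDinv e he]
      have hedQ : (e * d)⁻¹ ∈ Q := Q.inv_mem (Q.mul_mem (hDQ e he) (hDQ d hd))
      calc ⁅d⁻¹, e⁻¹⁆ = (e * d)⁻¹ * ⁅d, e⁆ * (e * d) := by
            simp only [commutatorElement_def]; group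
        _ = ⁅d, e⁆ * (e * d)⁻¹ * (e * d) := by rw [hFc _ hc _ hedQ]
        _ = ⁅d, e⁆ := inv_mul_cancel_right _ _
    intro a ha b hb
    refine ⟨?_, hsqN a ha⟩
    have hself : ∀ w : Y, ⁅w, w⁆ ∈ N₀ := fun w => by
      rw [commutatorElement_eq_one_iff_mul_comm.2 rfl]; exact hone
    rcases ha with rfl | ha | ha <;> rcases hb with rfl | hb | hb
    · exact hself _
    · exact huF b hb
    · exact huD b hb
    · rw [← commutatorElement_inv]; exact N₀.inv_mem (huF a ha)
    · rw [commutatorElement_eq_one_iff_mul_comm.2 (hFc a ha b (hFQ hb))]; exact hone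
    · rw [commutatorElement_eq_one_iff_mul_comm.2 (hFc a ha b (hDQ b hb))]; exact hone
    · rw [← commutatorElement_inv]; exact N₀.inv_mem (huD a ha)
    · rw [commutatorElement_eq_one_iff_mul_comm.2 (hFc b hb a (hDQ a ha)).symm]; exact hone
    · exact hDD a ha b hb
  -- the quotient is elementary abelian
  have hcomm : ∀ a b : H, ⁅(a : Y), (b : Y)⁆ ∈ N₀ := by
    have h1 : ∀ a ∈ insert u ((F : Set Y) ∪ D), ∀ h ∈ H, ⁅a, h⁆ ∈ N₀ := by
      intro a ha h hh
      induction hh using Subgroup.closure_induction with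
      | mem w hw => exact (hgenc a ha w hw).1
      | one => rw [commutatorElement_one_right]; exact N₀.one_mem
      | mul v w hv hw ihv ihw =>
        have e : ⁅a, v * w⁆ = ⁅a, v⁆ * (v * ⁅a, w⁆ * v⁻¹) := by
          simp [commutatorElement_def, mul_assoc]
        rw [e, ← hNc _ ihw v hv, mul_inv_cancel_right]
        exact N₀.mul_mem ihv ihw
      | inv v hv ihv =>
        have e : ⁅a, v⁻¹⁆ = v⁻¹ * ⁅a, v⁆⁻¹ * v := by simp [commutatorElement_def, mul_assoc]
        rw [e, ← hNc _ (N₀.inv_mem ihv) v⁻¹ (H.inv_mem hv), inv_mul_cancel_right]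
        exact N₀.inv_mem ihv
    intro a b
    obtain ⟨a, ha⟩ := a
    show ⁅a, (b : Y)⁆ ∈ N₀
    induction ha using Subgroup.closure_induction with
    | mem w hw => exact h1 w hw b b.2
    | one => rw [commutatorElement_one_left]; exact N₀.one_mem
    | mul v w hv hw ihv ihw =>
      have e : ⁅v * w, (b : Y)⁆ = v * ⁅w, (b : Y)⁆ * v⁻¹ * ⁅v, (b : Y)⁆ := by
        simp [commutatorElement_def, mul_assoc]
      rw [e, ← hNc _ ihw v hv, mul_inv_cancel_right]
      exact N₀.mul_mem ihw ihv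
    | inv v hv ihv =>
      have e : ⁅v⁻¹, (b : Y)⁆ = v⁻¹ * ⁅v, (b : Y)⁆⁻¹ * v := by simp [commutatorElement_def, mul_assoc]
      rw [e, ← hNc _ (N₀.inv_mem ihv) v⁻¹ (H.inv_mem hv), inv_mul_cancel_right]
      exact N₀.inv_mem ihv
  have hmc : ∀ a b : H ⧸ N, a * b = b * a := fun a b =>
    QuotientGroup.induction_on a fun x => QuotientGroup.induction_on b fun y => by
      show QuotientGroup.mk' N x * QuotientGroup.mk' N y = QuotientGroup.mk' N y * QuotientGroup.mk' N x
      rw [← commutatorElement_eq_one_iff_mul_comm, ← map_commutatorElement]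
      refine (QuotientGroup.eq_one_iff _).2 ?_
      show ((⁅x, y⁆ : H) : Y) ∈ N₀
      exact hcomm x y
  have hsq' : ∀ a : H ⧸ N, a * a = 1 := fun a => QuotientGroup.induction_on a fun x => by
    obtain ⟨x, hx⟩ := x
    refine (QuotientGroup.eq_one_iff _).2 ?_
    show x * x ∈ N₀
    induction hx using Subgroup.closure_induction with
    | mem w hw => exact (hgenc w hw w hw).2
    | one => rw [mul_one]; exact N₀.one_mem
    | mul v w hv hw ihv ihw =>
      have hc := hcomm ⟨w, hw⟩ ⟨v, hv⟩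
      have e : v * w * (v * w) = v * ⁅w, v⁆ * v * (w * w) := by
        simp [commutatorElement_def, mul_assoc]
      rw [e, ← hNc _ hc v hv, mul_assoc ⁅w, v⁆ v v]
      exact N₀.mul_mem (N₀.mul_mem hc ihv) ihw
    | inv v hv ihv => rw [← mul_inv_rev]; exact N₀.inv_mem ihv
  have hbound := h4 H N ⊤ ⟨⟨fun a b => Subtype.ext (hmc a b)⟩⟩ (fun a _ => by rw [sq]; exact hsq' a)
  rw [Subgroup.card_top] at hbound
  have h5 := N.card_mul_index
  rw [Subgroup.index_eq_card] at h5
  have hN : Nat.card N ≤ 4 := by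
    rw [Nat.card_congr (Subgroup.subgroupOfEquivOfLe hNH).toEquiv]; exact hFix
  have h6 : Nat.card N * Nat.card (H ⧸ N) ≤ 4 * 2 ^ 4 := Nat.mul_le_mul hN hbound
  omega

end Cfsg.Agent.TwoAut.OrderFive
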