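import Cfsg.Agent.TwoAut.CentralSquares
import Cfsg.Agent.TwoGroups.Recognition

/-!
# Recognising `Q₈ ∘ D₈`
-/

set_option autoImplicit false
set_option linter.all false

namespace Cfsg.Agent.TwoAut.OrderFive

open scoped commutatorElement

universe u

variable {Q : Type u} [Group Q] [Finite Q]

/-- A group of order 32 with a layer of order two is the central product of a quaternion and a
dihedral group. -/
theorem minus_type {F : Subgroup Q} [F.Normal] {ρ : MulAut Q} (L : Layer F ρ)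
    (hFc : F ≤ Subgroup.center Q) (hF : Nat.card F = 2) (hsq : ∀ x, x * x ∈ F)
    (hne : ∃ x : Q, x * x ≠ 1) :
    Nat.card Q = 32 ∧ ∃ A B : Subgroup Q, Nonempty (↥A ≃* QuaternionGroup 2) ∧
      Nonempty (↥B ≃* DihedralGroup 4) ∧ (∀ a ∈ A, ∀ b ∈ B, a * b = b * a) ∧
      A ⊔ B = ⊤ ∧ A ⊓ B = Subgroup.center Q := by
  classical
  haveI : Fact (Nat.Prime 5) := ⟨by norm_num⟩
  obtain ⟨x, hx⟩ := hne
  obtain ⟨z, hxz⟩ : ∃ z, x * x = z := ⟨_, rfl⟩
  rw [hxz] at hx
  have hzF : z ∈ F := hxz ▸ hsq x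
  have hmem : ∀ f ∈ F, f = 1 ∨ f = z := by
    intro f hf
    by_contra hno
    push Not at hno
    have h3 : 3 ≤ Nat.card F := by
      refine le_trans (Nat.card_fin 3).ge (Nat.card_le_card_of_injective
        (![(1 : F), ⟨z, hzF⟩, ⟨f, hf⟩]) ?_)
      intro i j h
      fin_cases i <;> fin_cases j <;>
        simp_all [Subtype.ext_iff, eq_comm]
    omega
  have hzz : z * z = 1 := by
    rcases hmem _ (F.mul_mem hzF hzF) with h | h
    · exact h
    · exact absurd (mul_eq_left.1 h) hx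
  have hF2 : ∀ f ∈ F, f * f = 1 := fun f hf => by
    rcases hmem f hf with rfl | rfl
    · exact mul_one 1
    · exact hzz
  have hzc : ∀ g, g * z = z * g := fun g => Subgroup.mem_center_iff.1 (hFc hzF) g
  have hρz : ρ z = z := by
    rcases hmem _ (L.stable z hzF) with h | h
    · rw [map_eq_one_iff ρ ρ.injective] at h; exact absurd h hx
    · exact h
  have hρF : ∀ f ∈ F, ρ f = f := fun f hf => by
    rcases hmem f hf with rfl | rfl
    · exact map_one ρ
    · exact hρz
  have hρsq : ∀ g, ρ g * ρ g = g * g := fun g => by rw [← map_mul]; exact hρF _ (hsq g)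
  have hcm := comm_mem_of_sq hsq
  have hcval : ∀ a b : Q, ⁅a, b⁆ = 1 ∨ ⁅a, b⁆ = z := fun a b => hmem _ (hcm a b)
  -- the centre is `F`
  have hZ : Subgroup.center Q = F := by
    rcases L.invariant (Subgroup.center Q) hFc (fun g hg => by
      rw [Subgroup.mem_center_iff] at hg ⊢
      intro h
      obtain ⟨h', rfl⟩ := ρ.surjective h
      rw [← map_mul, ← map_mul, hg h']) with h | h
    · exact h
    · exfalso
      have hab : ∀ a b : Q, a * b = b * a := fun a b =>
        (Subgroup.mem_center_iff.1 (h ▸ Subgroup.mem_top b) a)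
      let S : Subgroup Q :=
        { carrier := {g | g * g = 1}
          one_mem' := mul_one 1
          mul_mem' := fun {a b} ha hb => by
            show a * b * (a * b) = 1
            rw [show a * b * (a * b) = a * (b * a) * b by group, hab b a,
              show a * (a * b) * b = (a * a) * (b * b) by group, ha, hb, mul_one]
          inv_mem' := fun {a} ha => by
            show a⁻¹ * a⁻¹ = 1
            rw [← mul_inv_rev, ha, inv_one] }
      rcases L.invariant S (fun f hf => hF2 f hf) (fun g hg => by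
        show ρ g * ρ g = 1
        rw [hρsq]; exact hg) with hS | hS
      · have h2 : S.index = 2 := by
          rw [Subgroup.index_eq_two_iff]
          refine ⟨x, fun b => ?_⟩
          have hxS : x ∉ S := fun h => hx (hxz ▸ h)
          rcases Classical.em (b ∈ S) with hb | hb
          · exact Or.inr ⟨hb, fun h => hxS ((S.mul_mem_cancel_left hb).1 h)⟩
          · refine Or.inl ⟨?_, hb⟩
            show b * x * (b * x) = 1
            rw [show b * x * (b * x) = b * (x * b) * x by group, hab x b,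
              show b * (b * x) * x = (b * b) * (x * x) by group, hxz,
              (hmem _ (hsq b)).resolve_left hb, hzz]
        rw [hS, L.index] at h2
        omega
      · exact hx (hxz ▸ (hS ▸ Subgroup.mem_top x : x ∈ S))
  have hxF : x ∉ F := fun h => hx (hxz ▸ hF2 x h)
  -- a partner `y`
  obtain ⟨y, hyy, hcyx⟩ : ∃ y, y * y = z ∧ ⁅y, x⁆ = z := by
    by_contra hno
    push Not at hno
    set x1 := ρ x with hx1
    set x2 := ρ x1 with hx2
    set x3 := ρ x2 with hx3
    set x4 := ρ x3 with hx4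
    have hq : ∀ g, g * g = z → ⁅g, x⁆ = 1 := fun g hg =>
      (hcval g x).resolve_right (hno g hg)
    have q1 : x1 * x1 = z := (hρsq x).trans hxz
    have q2 : x2 * x2 = z := (hρsq x1).trans q1
    have c1 := hq x1 q1
    have c2 := hq x2 q2
    have c3 : ⁅x2, x1⁆ = 1 := by
      have := congrArg ρ c1
      rwa [map_commutatorElement, map_one] at this
    have hfive : (x * x1 * x2) * (x3 * x4) ∈ F := by
      have h5 : ρ x4 = x := DFunLike.congr_fun L.five x
      rw [← QuotientGroup.eq_one_iff (N := F)]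
      refine L.bar_fix _ ?_
      rw [L.bar_mk]
      simp only [map_mul]
      rw [← hx1, ← hx2, ← hx3, ← hx4, h5]
      show QuotientGroup.mk' F _ = QuotientGroup.mk' F _
      have hcomm : ∀ u v : Q, QuotientGroup.mk' F u * QuotientGroup.mk' F v =
          QuotientGroup.mk' F v * QuotientGroup.mk' F u := fun u v => by
        rw [← commutatorElement_eq_one_iff_mul_comm, ← map_commutatorElement]
        exact (QuotientGroup.eq_one_iff _).2 (hcm u v)
      have e : (x1 * x2 * x3) * (x4 * x) = (x1 * x2 * x3 * x4) * x := by group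
      have e' : (x * x1 * x2) * (x3 * x4) = x * (x1 * x2 * x3 * x4) := by group
      rw [e, e', map_mul, map_mul]
      exact hcomm _ _
    obtain ⟨f, hf, hff⟩ : ∃ f ∈ F, x3 * x4 = (x * x1 * x2)⁻¹ * f :=
      ⟨_, hfive, by group⟩
    have h34 : (x3 * x4) * (x3 * x4) = 1 := by
      have : x3 * x4 = ρ (ρ (ρ (x * x1))) := by simp only [map_mul]; rw [hx4, hx3, hx2, hx1]
      rw [this, hρsq, hρsq, hρsq, sq_mul_central x x1 (hFc (hcm _ _)), c1, q1, hxz, one_mul, hzz]
    have h123 : (x * x1 * x2) * (x * x1 * x2) = z := by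
      rw [sq_mul_central (x * x1) x2 (hFc (hcm _ _)), comm_mul_central x2 x x1 (hFc (hcm _ _)),
        c2, c3, sq_mul_central x x1 (hFc (hcm _ _)), c1, q1, q2, hxz]
      simp [hzz]
    have hfc := Subgroup.mem_center_iff.1 (hFc hf) (x * x1 * x2)⁻¹
    apply hx
    rw [hff] at h34
    calc z = ((x * x1 * x2) * (x * x1 * x2)) := h123.symm
      _ = (x * x1 * x2) * (x * x1 * x2) *
          (((x * x1 * x2)⁻¹ * f) * ((x * x1 * x2)⁻¹ * f)) := by rw [h34, mul_one]
      _ = (x * x1 * x2) * (f * (x * x1 * x2)⁻¹) * f := by group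
      _ = (x * x1 * x2) * ((x * x1 * x2)⁻¹ * f) * f := by rw [hfc]
      _ = f * f := by group
      _ = 1 := hF2 f hf
  have hord : ∀ g, g * g = z → orderOf g = 4 := fun g hg => by
    have hpow : g ^ (2 ^ 1) ≠ 1 := by rw [show 2 ^ 1 = 2 from rfl, sq, hg]; exact hx
    have h4 : g ^ (2 ^ 2) = 1 := by
      rw [show 2 ^ 2 = 2 * 2 from rfl, pow_mul, sq g, hg, sq, hzz]
    exact (orderOf_eq_prime_pow hpow h4).trans rfl
  have hinv : ∀ g, g * g = z → z * g = g⁻¹ := fun g hg =>
    eq_inv_of_mul_eq_one_left (by rw [mul_assoc, hg, hzz])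
  have hnm : ∀ a b : Q, ⁅b, a⁆ = z → b ∉ Subgroup.zpowers a := fun a b h hb => by
    obtain ⟨k, rfl⟩ := Subgroup.mem_zpowers_iff.1 hb
    rw [commutatorElement_eq_one_iff_mul_comm.2 ((Commute.refl a).zpow_left k)] at h
    exact hx h.symm
  have hconj : ∀ a b : Q, ⁅b, a⁆ = z → b * a * b⁻¹ = z * a := fun a b h => by
    rw [← h, commutatorElement_def]; group
  let A : Subgroup Q := Subgroup.closure {x, y}
  obtain ⟨eA⟩ := Cfsg.Agent.TwoGroups.closure_equiv_quaternion (n := 2) (a := x) (b := y)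
    (hord x hxz) (hnm x y hcyx) (by rw [hyy, sq, hxz])
    (by rw [hconj x y hcyx, hinv x hxz])
  let B : Subgroup Q := Subgroup.centralizer {x} ⊓ Subgroup.centralizer {y}
  have hBmem : ∀ g, g ∈ B ↔ g * x = x * g ∧ g * y = y * g := fun g => by
    simp [B, Subgroup.mem_centralizer_singleton_iff]
  have hxA : x ∈ A := Subgroup.subset_closure (by simp)
  have hyA : y ∈ A := Subgroup.subset_closure (by simp)
  have hAB : ∀ a ∈ A, ∀ b ∈ B, a * b = b * a := by
    intro a ha b hb
    have hle : A ≤ Subgroup.centralizer {b} := by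
      refine (Subgroup.closure_le _).2 ?_
      rintro w (rfl | rfl) <;> rw [SetLike.mem_coe, Subgroup.mem_centralizer_singleton_iff]
      · exact ((hBmem b).1 hb).1.symm
      · exact ((hBmem b).1 hb).2.symm
    exact Subgroup.mem_centralizer_singleton_iff.1 (hle ha)
  have hc1 : ∀ a b : Q, ⁅a, b⁆ = 1 → a * b = b * a := fun a b h =>
    commutatorElement_eq_one_iff_mul_comm.1 h
  have hswap : ⁅x, y⁆ = z := by
    rw [← commutatorElement_inv, hcyx]
    exact inv_eq_of_mul_eq_one_right hzz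
  have hdec : ∀ g, ∃ i j : Fin 2, (x ^ (i : ℕ) * y ^ (j : ℕ))⁻¹ * g ∈ B := by
    intro g
    have hl : ∀ a b w : Q, ⁅a * b, w⁆ = ⁅a, w⁆ * ⁅b, w⁆ := fun a b w => by
      have e : ⁅a * b, w⁆ = a * ⁅b, w⁆ * a⁻¹ * ⁅a, w⁆ := by simp [commutatorElement_def, mul_assoc]
      have hb := Subgroup.mem_center_iff.1 (hFc (hcm b w))
      rw [e, hb a, mul_inv_cancel_right, ← hb]
    have hxx : ⁅x⁻¹, x⁆ = 1 ∧ ⁅y⁻¹, y⁆ = 1 :=
      ⟨commutatorElement_eq_one_iff_mul_comm.2 (Commute.refl x).inv_left,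
        commutatorElement_eq_one_iff_mul_comm.2 (Commute.refl y).inv_left⟩
    have hxy' : ⁅x⁻¹, y⁆ = z ∧ ⁅y⁻¹, x⁆ = z := by
      constructor
      · have := hl x⁻¹ x y
        rw [inv_mul_cancel, commutatorElement_one_left, hswap] at this
        exact (eq_inv_of_mul_eq_one_left this.symm).trans (inv_eq_of_mul_eq_one_right hzz)
      · have := hl y⁻¹ y x
        rw [inv_mul_cancel, commutatorElement_one_left, hcyx] at this
        exact (eq_inv_of_mul_eq_one_left this.symm).trans (inv_eq_of_mul_eq_one_right hzz)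
    rcases hcval g y with h1 | h1 <;> rcases hcval g x with h2 | h2
    · exact ⟨0, 0, (hBmem _).2 ⟨by simpa using hc1 _ _ h2, by simpa using hc1 _ _ h1⟩⟩
    · exact ⟨0, 1, (hBmem _).2 ⟨hc1 _ _ (by simp [hl, hxy'.2, h2, hzz]),
        hc1 _ _ (by simp [hl, hxx.2, h1])⟩⟩
    · exact ⟨1, 0, (hBmem _).2 ⟨hc1 _ _ (by simp [hl, hxx.1, h2]),
        hc1 _ _ (by simp [hl, hxy'.1, h1, hzz])⟩⟩
    · exact ⟨1, 1, (hBmem _).2 ⟨hc1 _ _ (by simp [hl, hxx.1, hxy'.2, h2, hzz]),
        hc1 _ _ (by simp [hl, hxy'.1, hxx.2, h1, hzz])⟩⟩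
  have hxyA : ∀ i j : Fin 2, x ^ (i : ℕ) * y ^ (j : ℕ) ∈ A := fun i j =>
    A.mul_mem (A.pow_mem hxA _) (A.pow_mem hyA _)
  have htop : A ⊔ B = ⊤ := by
    refine eq_top_iff.2 fun g _ => ?_
    obtain ⟨i, j, h⟩ := hdec g
    rw [← mul_inv_cancel_left (x ^ (i : ℕ) * y ^ (j : ℕ)) g]
    exact mul_mem (le_sup_left (a := A) (hxyA i j)) (le_sup_right (a := A) h)
  have hzA : z ∈ A := hxz ▸ A.mul_mem hxA hxA
  have hzB : z ∈ B := (hBmem z).2 ⟨(hzc x).symm, (hzc y).symm⟩
  have hinf : A ⊓ B = Subgroup.center Q := by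
    refine le_antisymm (fun g hg => ?_) ?_
    · rw [Subgroup.mem_center_iff]
      intro h
      have hle : A ⊔ B ≤ Subgroup.centralizer {g} := by
        refine sup_le (fun a ha => ?_) (fun b hb => ?_) <;>
          rw [Subgroup.mem_centralizer_singleton_iff]
        · exact hAB a ha g hg.2
        · exact (hAB g hg.1 b hb).symm
      exact Subgroup.mem_centralizer_singleton_iff.1 (hle (htop ▸ Subgroup.mem_top h))
    · rw [hZ]
      intro f hf
      rcases hmem f hf with rfl | rfl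
      · exact one_mem _
      · exact ⟨hzA, hzB⟩
  have hQ32 : Nat.card Q = 32 := by
    rw [← Subgroup.card_mul_index F, hF, L.index]
  have hB8 : Nat.card B = 8 := by
    have hA8 : Nat.card A = 8 := by
      rw [Nat.card_congr eA.toEquiv, Cfsg.Agent.TwoGroups.nat_card_quaternionGroup]
    have hxx4 : ∀ a b : Q, ⁅b, a⁆ = z → a ∉ F ∧ b ∉ F := fun a b h => by
      constructor <;> intro hf
      · rw [commutatorElement_eq_one_iff_mul_comm.2 (Subgroup.mem_center_iff.1 (hFc hf) b)] at h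
        exact hx h.symm
      · rw [commutatorElement_eq_one_iff_mul_comm.2 (Subgroup.mem_center_iff.1 (hFc hf) a).symm] at h
        exact hx h.symm
    have hrel : B.relIndex A = 4 := by
      have h1 : (B ⊓ A) = F := by rw [inf_comm, hinf, hZ]
      have h2 : F ≤ A := by rw [← hZ, ← hinf]; exact inf_le_left
      rw [← Subgroup.inf_relIndex_right, h1]
      have := Subgroup.relIndex_mul_index h2
      have hA : A.index = 4 := by
        have := A.card_mul_index
        rw [hA8, hQ32] at this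
        omega
      rw [hA, L.index] at this
      omega
    -- `B` has index four
    have hBle : B.index ≤ 4 := by
      rw [Subgroup.index_eq_card]
      refine (Nat.card_le_card_of_surjective
        (fun p : Fin 2 × Fin 2 => (QuotientGroup.mk (x ^ (p.1 : ℕ) * y ^ (p.2 : ℕ)) : Q ⧸ B)) ?_).trans_eq
        (by simp)
      intro q
      refine QuotientGroup.induction_on q fun g => ?_
      obtain ⟨i, j, h⟩ := hdec g
      exact ⟨(i, j), QuotientGroup.eq.2 h⟩
    have hBge : 4 ≤ B.index := by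
      have := Subgroup.relIndex_le_of_le_right (le_top : A ≤ ⊤) (H := B) (by rw [Subgroup.relIndex_top_right]; exact Subgroup.index_ne_zero_of_finite)
      rw [Subgroup.relIndex_top_right] at this
      omega
    have := B.card_mul_index
    rw [hQ32, show B.index = 4 by omega] at this
    omega
  -- two elements of `B` generating a dihedral group
  have hBF : ∀ b ∈ B, (∀ c ∈ B, b * c = c * b) → b ∈ F := by
    intro b hb hall
    rw [← hZ, Subgroup.mem_center_iff]
    intro h
    have hle : A ⊔ B ≤ Subgroup.centralizer {b} := by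
      refine sup_le (fun a ha => ?_) (fun c hc => ?_) <;>
        rw [Subgroup.mem_centralizer_singleton_iff]
      · exact hAB a ha b hb
      · exact (hall c hc).symm
    exact Subgroup.mem_centralizer_singleton_iff.1 (hle (htop ▸ Subgroup.mem_top h))
  obtain ⟨e, he, e2, f, hf, hfe⟩ : ∃ e ∈ B, e * e = 1 ∧ ∃ f ∈ B, ⁅f, e⁆ = z := by
    by_contra hno
    push Not at hno
    have hBsq : ∀ b ∈ B, b ∉ F → b * b = z := by
      intro b hb hbF
      refine (hmem _ (hsq b)).resolve_left fun h => hbF (hBF b hb fun c hc => ?_)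
      exact (hc1 c b ((hcval c b).resolve_right (hno b hb h c hc))).symm
    -- count the singular elements
    let T := {g : Q // g * g = 1 ∧ g ∉ F}
    let U := {p : Fin 2 × Fin 2 // p ≠ 0}
    let Bx := {b : B // (b : Q) ∉ F}
    have hrep : ∀ p : Fin 2 × Fin 2, p ≠ 0 →
        (x ^ (p.1 : ℕ) * y ^ (p.2 : ℕ)) * (x ^ (p.1 : ℕ) * y ^ (p.2 : ℕ)) = z := by
      rintro ⟨i, j⟩ hp
      fin_cases i <;> fin_cases j <;>
        simp [sq_mul_central x y (hFc (hcm _ _)), hxz, hyy, hcyx, hzz] at hp ⊢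
    have hcom : ∀ (p : Fin 2 × Fin 2) (b : Q), b ∈ B →
        (x ^ (p.1 : ℕ) * y ^ (p.2 : ℕ)) * b = b * (x ^ (p.1 : ℕ) * y ^ (p.2 : ℕ)) :=
      fun p b hb => hAB _ (hxyA _ _) b hb
    let φ : U × Bx → T := fun q => ⟨(x ^ (q.1.1.1 : ℕ) * y ^ (q.1.1.2 : ℕ)) * (q.2.1 : Q), by
      constructor
      · generalize hr : x ^ (q.1.1.1 : ℕ) * y ^ (q.1.1.2 : ℕ) = r
        have h1 : r * r = z := hr ▸ hrep _ q.1.2
        have h2 : r * (q.2.1 : Q) = (q.2.1 : Q) * r := hr ▸ hcom _ _ q.2.1.2
        calc r * (q.2.1 : Q) * (r * (q.2.1 : Q)) = r * ((q.2.1 : Q) * r) * (q.2.1 : Q) := by group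
          _ = r * (r * (q.2.1 : Q)) * (q.2.1 : Q) := by rw [h2]
          _ = (r * r) * ((q.2.1 : Q) * (q.2.1 : Q)) := by group
          _ = 1 := by rw [h1, hBsq _ q.2.1.2 q.2.2, hzz]
      · intro h
        have hb : x ^ (q.1.1.1 : ℕ) * y ^ (q.1.1.2 : ℕ) ∈ B := by
          have hFB : F ≤ B := by rw [← hZ, ← hinf]; exact inf_le_right
          have := B.mul_mem (hFB h) (B.inv_mem q.2.1.2)
          rwa [mul_inv_cancel_right] at this
        have hF' : x ^ (q.1.1.1 : ℕ) * y ^ (q.1.1.2 : ℕ) ∈ F :=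
          hZ ▸ hinf ▸ Subgroup.mem_inf.2 ⟨hxyA _ _, hb⟩
        exact hx ((hrep _ q.1.2).symm.trans (hF2 _ hF'))⟩
    have hxy_inj : ∀ p q : Fin 2 × Fin 2,
        (x ^ (q.1 : ℕ) * y ^ (q.2 : ℕ))⁻¹ * (x ^ (p.1 : ℕ) * y ^ (p.2 : ℕ)) ∈ B → p = q := by
      intro p q h
      have hval : ∀ r : Fin 2 × Fin 2, ⁅x ^ (r.1 : ℕ) * y ^ (r.2 : ℕ), x⁆ = z ^ (r.2 : ℕ) ∧
          ⁅x ^ (r.1 : ℕ) * y ^ (r.2 : ℕ), y⁆ = z ^ (r.1 : ℕ) := by
        have e1 : ⁅x * y, x⁆ = z := by
          calc ⁅x * y, x⁆ = x * ⁅y, x⁆ * x⁻¹ * ⁅x, x⁆ := by simp [commutatorElement_def, mul_assoc]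
            _ = z := by rw [hcyx, hzc, mul_inv_cancel_right,
              commutatorElement_eq_one_iff_mul_comm.2 rfl, mul_one]
        have e2 : ⁅x * y, y⁆ = z := by
          calc ⁅x * y, y⁆ = x * ⁅y, y⁆ * x⁻¹ * ⁅x, y⁆ := by simp [commutatorElement_def, mul_assoc]
            _ = z := by rw [commutatorElement_eq_one_iff_mul_comm.2 rfl, mul_one, mul_inv_cancel,
              one_mul, hswap]
        have e3 : ⁅x, x⁆ = 1 := commutatorElement_eq_one_iff_mul_comm.2 rfl
        have e4 : ⁅y, y⁆ = 1 := commutatorElement_eq_one_iff_mul_comm.2 rfl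
        rintro ⟨i, j⟩
        fin_cases i <;> fin_cases j <;>
          simp [e1, e2, e3, e4, hcyx, hswap]
      have heq : ∀ w, w ∈ ({x, y} : Set Q) → ⁅x ^ (p.1 : ℕ) * y ^ (p.2 : ℕ), w⁆ =
          ⁅x ^ (q.1 : ℕ) * y ^ (q.2 : ℕ), w⁆ := by
        intro w hw
        generalize x ^ (p.1 : ℕ) * y ^ (p.2 : ℕ) = r at h
        generalize x ^ (q.1 : ℕ) * y ^ (q.2 : ℕ) = s' at h ⊢
        obtain ⟨b, hb, rfl⟩ : ∃ b, b ∈ B ∧ r = s' * b := ⟨_, h, by group⟩
        have hbw : b * w = w * b := by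
          rcases hw with rfl | rfl
          · exact ((hBmem b).1 hb).1
          · exact ((hBmem b).1 hb).2
        calc ⁅s' * b, w⁆ = s' * ⁅b, w⁆ * s'⁻¹ * ⁅s', w⁆ := by simp [commutatorElement_def, mul_assoc]
          _ = ⁅s', w⁆ := by rw [commutatorElement_eq_one_iff_mul_comm.2 hbw]; simp
      have h1 := heq x (Or.inl rfl)
      have h2 := heq y (Or.inr rfl)
      rw [(hval p).1, (hval q).1] at h1
      rw [(hval p).2, (hval q).2] at h2
      have hz : ∀ i j : Fin 2, z ^ (i : ℕ) = z ^ (j : ℕ) → i = j := by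
        intro i j h
        fin_cases i <;> fin_cases j <;> first | rfl | exact absurd (by simpa using h) hx | exact absurd (by simpa using h.symm) hx
      exact Prod.ext (hz _ _ h2) (hz _ _ h1)
    have hφ : Function.Bijective φ := by
      constructor
      · intro q q' h
        have h := congrArg Subtype.val h
        simp only [φ] at h
        have hm : (x ^ (q'.1.1.1 : ℕ) * y ^ (q'.1.1.2 : ℕ))⁻¹ *
            (x ^ (q.1.1.1 : ℕ) * y ^ (q.1.1.2 : ℕ)) ∈ B := by
          have : (x ^ (q'.1.1.1 : ℕ) * y ^ (q'.1.1.2 : ℕ))⁻¹ *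
              (x ^ (q.1.1.1 : ℕ) * y ^ (q.1.1.2 : ℕ)) = (q'.2.1 : Q) * (q.2.1 : Q)⁻¹ := by
            rw [inv_mul_eq_iff_eq_mul, ← mul_assoc, ← h, mul_inv_cancel_right]
          rw [this]; exact B.mul_mem q'.2.1.2 (B.inv_mem q.2.1.2)
        have hp := hxy_inj _ _ hm
        rw [hp] at h
        exact Prod.ext (Subtype.ext hp) (Subtype.ext (Subtype.ext (mul_left_cancel h)))
      · rintro ⟨g, hg, hgF⟩
        obtain ⟨i, j, h⟩ := hdec g
        have hb : (x ^ (i : ℕ) * y ^ (j : ℕ))⁻¹ * g ∉ F := by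
          intro hf
          have hg' : g * g = (x ^ (i : ℕ) * y ^ (j : ℕ)) * (x ^ (i : ℕ) * y ^ (j : ℕ)) := by
            generalize x ^ (i : ℕ) * y ^ (j : ℕ) = r at hf ⊢
            have hc := Subgroup.mem_center_iff.1 (hFc hf) r
            calc g * g = r * ((r⁻¹ * g) * r) * (r⁻¹ * g) := by group
              _ = r * (r * (r⁻¹ * g)) * (r⁻¹ * g) := by rw [hc]
              _ = r * r * ((r⁻¹ * g) * (r⁻¹ * g)) := by group
              _ = r * r := by rw [hF2 _ hf, mul_one]
          by_cases hp : ((i, j) : Fin 2 × Fin 2) = 0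
          · simp only [Prod.mk_eq_zero] at hp
            simp [hp.1, hp.2] at hf
            exact hgF hf
          · rw [hg, hrep _ hp] at hg'
            exact hx hg'.symm
        by_cases hp : ((i, j) : Fin 2 × Fin 2) = 0
        · simp only [Prod.mk_eq_zero] at hp
          simp [hp.1, hp.2] at h hb
          exact absurd (hg.symm.trans (hBsq g h hb)).symm hx
        · exact ⟨(⟨(i, j), hp⟩, ⟨⟨_, h⟩, hb⟩), Subtype.ext (mul_inv_cancel_left _ _)⟩
    have hU : Nat.card U = 3 := by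
      rw [Nat.card_eq_fintype_card]; rfl
    have hFB : F ≤ B := by rw [← hZ, ← hinf]; exact inf_le_right
    have hBx : Nat.card Bx = 6 := by
      haveI : Fintype B := Fintype.ofFinite _
      rw [Nat.card_eq_fintype_card, Fintype.card_subtype_compl, ← Nat.card_eq_fintype_card, hB8,
        ← Nat.card_eq_fintype_card]
      have : Nat.card {b : B // (b : Q) ∈ F} = Nat.card F :=
        Nat.card_congr ⟨fun b => ⟨b.1.1, b.2⟩, fun f => ⟨⟨f.1, hFB f.2⟩, f.2⟩,
          fun b => rfl, fun f => rfl⟩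
      rw [this, hF]
    have hT : Nat.card T = 18 := by
      rw [← Nat.card_eq_of_bijective φ hφ, Nat.card_prod, hU, hBx]
    -- while `ρ` moves every one of them
    let π : Equiv.Perm T := (MulAut.toPerm Q ρ).subtypePerm (fun g => by
      show (ρ g * ρ g = 1 ∧ ρ g ∉ F) ↔ (g * g = 1 ∧ g ∉ F)
      rw [hρsq]
      have : ρ g ∈ F ↔ g ∈ F := by
        constructor
        · intro h; have := hρF _ h; rw [ρ.injective.eq_iff] at this; rw [this] at h; exact h
        · exact L.stable g
      rw [this])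
    have hπ : π ^ 5 = 1 := Equiv.ext fun g => Subtype.ext (DFunLike.congr_fun L.five g.1)
    have hm := perm_modEq_fixed 5 π hπ
    haveI : IsEmpty {g // π g = g} := ⟨fun g => g.1.2.2 (L.fpf g.1.1 (by
      have h : ρ g.1.1 = g.1.1 := congrArg Subtype.val g.2
      rw [h, inv_mul_cancel]; exact one_mem _))⟩
    rw [Nat.card_of_isEmpty (α := {g // π g = g}), hT] at hm
    simp [Nat.ModEq] at hm
  obtain ⟨a, b, ha, hb, haa, hbb, hba⟩ : ∃ a b, a ∈ B ∧ b ∈ B ∧ a * a = z ∧ b * b = 1 ∧ ⁅b, a⁆ = z := by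
    have hef : ⁅e, f⁆ = z := by
      rw [← commutatorElement_inv, hfe]; exact inv_eq_of_mul_eq_one_right hzz
    rcases hmem _ (hsq f) with h | h
    · refine ⟨e * f, e, B.mul_mem he hf, he, ?_, e2, ?_⟩
      · rw [sq_mul_central e f (hFc (hcm _ _)), hfe, e2, h, mul_one, mul_one]
      · rw [comm_mul_central e e f (hFc (hcm _ _)), hef,
          commutatorElement_eq_one_iff_mul_comm.2 rfl, one_mul]
    · exact ⟨f, e, hf, he, h, e2, hef⟩
  obtain ⟨eB⟩ := Cfsg.Agent.TwoGroups.closure_equiv_dihedral (n := 4) (a := a) (b := b)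
    (hord a haa) (hnm a b hba) hbb (by rw [hconj a b hba, hinv a haa])
  have hle : Subgroup.closure {a, b} ≤ B := (Subgroup.closure_le _).2 (by
    rintro w (rfl | rfl) <;> assumption)
  have hBeq : Subgroup.closure {a, b} = B := Subgroup.eq_of_le_of_card_ge hle (by
    rw [hB8, Nat.card_congr eB.toEquiv, DihedralGroup.nat_card])
  exact ⟨hQ32, A, B, ⟨eA⟩, ⟨(MulEquiv.subgroupCongr hBeq.symm).trans eB⟩, hAB, htop, hinf⟩

end Cfsg.Agent.TwoAut.OrderFive
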