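import Cfsg.Agent.TwoAut.RankFiveGlue
import Cfsg.Agent.TwoAut.EmbedGL

/-!
# The radical quotient of a group of sectional 2-rank four is neither `S₆` nor `A₈`
-/

set_option autoImplicit false
set_option linter.all false
set_option maxHeartbeats 800000

namespace Cfsg.Agent.TwoAut.RankFive

open Equiv Cfsg

universe u

theorem card_mulAut_small {V : Type u} [CommGroup V] [Finite V] (h2 : ∀ v : V, v * v = 1)
    (h8 : Nat.card V ≤ 8) : Nat.card (MulAut V) ≤ 512 := by
  classical
  letI : Module (ZMod 2) (Additive V) := AddCommGroup.zmodModule (fun x => by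
    rw [two_nsmul]; exact h2 x)
  have hV : Nat.card (Additive V) = Nat.card V := rfl
  have hd : Module.finrank (ZMod 2) (Additive V) ≤ 3 := by
    by_contra hcon
    have h := Module.natCard_eq_pow_finrank (K := ZMod 2) (V := Additive V)
    rw [hV, Nat.card_zmod] at h
    have : 2 ^ 4 ≤ 2 ^ Module.finrank (ZMod 2) (Additive V) :=
      Nat.pow_le_pow_right (by norm_num) (by omega)
    omega
  haveI : Finite (Additive V →ₗ[ZMod 2] Additive V) := Module.finite_of_finite (ZMod 2)
  refine (Nat.card_le_card_of_injective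
    (fun σ : MulAut V => (MonoidHom.toAdditive σ.toMonoidHom).toZModLinearMap 2) ?_).trans ?_
  · intro σ τ h
    refine MulEquiv.ext fun v => ?_
    exact Additive.ofMul.injective (LinearMap.congr_fun h (Additive.ofMul v))
  · rw [Module.natCard_eq_pow_finrank (K := ZMod 2), Module.finrank_linearMap, Nat.card_zmod]
    exact (Nat.pow_le_pow_right (by norm_num) (Nat.mul_le_mul hd hd)).trans_eq (by norm_num)

theorem elementary_iso {V : Type u} [CommGroup V] [Finite V] (h2 : ∀ v : V, v * v = 1)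
    (h16 : Nat.card V = 16) : Nonempty (Multiplicative (Fin 4 → ZMod 2) ≃* V) := by
  classical
  letI : Module (ZMod 2) (Additive V) := AddCommGroup.zmodModule (fun x => by
    rw [two_nsmul]; exact h2 x)
  have hV : Nat.card (Additive V) = 16 := h16
  have hd : Module.finrank (ZMod 2) (Additive V) = 4 := by
    apply Nat.pow_right_injective (le_refl 2)
    show 2 ^ Module.finrank (ZMod 2) (Additive V) = 2 ^ 4
    have h := Module.natCard_eq_pow_finrank (K := ZMod 2) (V := Additive V)
    rw [hV, Nat.card_zmod] at h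
    rw [← h]
  let L : (Fin 4 → ZMod 2) ≃ₗ[ZMod 2] Additive V :=
    LinearEquiv.ofFinrankEq _ _ (by rw [Module.finrank_fin_fun, hd])
  exact ⟨AddEquiv.toMultiplicativeLeft L.toAddEquiv⟩

theorem alt_eight_equiv_mulAut {V : Type u} [CommGroup V] [Finite V] (h2 : ∀ v : V, v * v = 1)
    (h16 : Nat.card V = 16) : Nonempty (alternatingGroup (Fin 8) ≃* MulAut V) := by
  obtain ⟨L⟩ := elementary_iso h2 h16
  obtain ⟨θ, hθ⟩ := SubEight.exists_alt_eight_action
  let ψ := (MulAut.congr L).toMonoidHom.comp θ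
  have hψ : Function.Injective ψ := (MulAut.congr L).injective.comp hθ
  obtain ⟨g1, hg1⟩ := exists_mulAut_embed h2 h16.le
  obtain ⟨g2, hg2⟩ := exists_sl_four_embed_psl (F := ZMod 2) (ZMod.card 2)
  obtain ⟨e⟩ := S0256.result (F := ZMod 2) (ZMod.card 2)
  have hle : Nat.card (MulAut V) ≤ Nat.card (alternatingGroup (Fin 8)) :=
    Nat.card_le_card_of_injective ((e.toMonoidHom.comp g2).comp g1)
      ((e.injective.comp hg2).comp hg1)
  exact ⟨MulEquiv.ofBijective ψ (hψ.bijective_of_nat_card_le hle)⟩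

theorem not_six_or_eight {X : Type u} [Group X] [Finite X] (hc : IsPConstrained 2 X)
    (hO : oddCore X = ⊥) (h4 : SectionalPRankLE 2 4 X) :
    ¬ (Nonempty (X ⧸ pCore 2 X ≃* Perm (Fin 6)) ∨
      Nonempty (X ⧸ pCore 2 X ≃* alternatingGroup (Fin 8))) := by
  classical
  intro hiso
  haveI : Fact (Nat.Prime 2) := ⟨Nat.prime_two⟩
  set Q := pCore 2 X with hQdef
  haveI hQn : Q.Normal := inferInstance
  have hQ : IsPGroup 2 Q := PSolv.isPGroup_pCore 2 X
  have hCQ := PSolv.centralizer_pCore_le_of_isPConstrained hc hO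
  let Φ' : Subgroup X := (frattini ↥Q).map Q.subtype
  have hΦQ : Φ' ≤ Q := Subgroup.map_subtype_le _
  haveI hΦn : Φ'.Normal := inferInstance
  let π0 : X →* X ⧸ Φ' := QuotientGroup.mk' Φ'
  let V : Subgroup (X ⧸ Φ') := Q.map π0
  haveI hVn : V.Normal := hQn.map π0 (QuotientGroup.mk'_surjective Φ')
  have hV2 : ∀ v ∈ V, v * v = 1 := by
    rintro _ ⟨w, hw, rfl⟩
    rw [← map_mul, QuotientGroup.mk'_apply, QuotientGroup.eq_one_iff]
    exact ⟨_, PGroup.pow_mem_frattini hQ ⟨w, hw⟩, by simp [sq]⟩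
  letI : CommGroup V :=
    { (inferInstance : Group V) with
      mul_comm := fun a b => by
        apply Subtype.ext
        show (a : X ⧸ Φ') * b = b * a
        have hinv : ∀ v ∈ V, (v : X ⧸ Φ')⁻¹ = v := fun v hv => inv_eq_of_mul_eq_one_right (hV2 v hv)
        rw [← hinv _ (V.mul_mem a.2 b.2), mul_inv_rev, hinv _ a.2, hinv _ b.2] }
  have h2 : ∀ v : V, v * v = 1 := fun v => Subtype.ext (hV2 _ v.2)
  have hV16 : Nat.card V ≤ 16 := by
    have h1 := sectional_of_injective Q.subtype Subtype.val_injective h4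
    let e : (↥(⊤ : Subgroup ↥Q) ⧸ (frattini ↥Q).subgroupOf ⊤) ≃* (↥Q ⧸ frattini ↥Q) :=
      QuotientGroup.congr _ _ Subgroup.topEquiv (by
        ext y
        simp [Subgroup.mem_subgroupOf])
    let r : ↥Q →* V := π0.subgroupMap Q
    have hr : Function.Surjective r := π0.subgroupMap_surjective Q
    have hker : r.ker = frattini ↥Q := by
      ext w
      rw [MonoidHom.mem_ker]
      constructor
      · intro h
        obtain ⟨z, hz, hzw⟩ := (QuotientGroup.eq_one_iff (w : X)).1 (congrArg Subtype.val h)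
        exact (Subtype.ext hzw : z = w) ▸ hz
      · intro h
        exact Subtype.ext ((QuotientGroup.eq_one_iff (w : X)).2 ⟨w, h, rfl⟩)
    let e2 : (↥Q ⧸ frattini ↥Q) ≃* V :=
      (QuotientGroup.quotientMulEquivOfEq hker.symm).trans
        (QuotientGroup.quotientKerEquivOfSurjective r hr)
    rw [← Nat.card_congr (e.trans e2).toEquiv, ← Subgroup.card_top (G := ↥(⊤ : Subgroup ↥Q) ⧸ _)]
    exact h1 ⊤ ((frattini ↥Q).subgroupOf ⊤) ⊤
      ⟨⟨fun a b => Subtype.ext ((e.trans e2).injective (by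
        simp only [Subgroup.coe_mul, map_mul]; exact mul_comm _ _))⟩⟩
      (fun a _ => (e.trans e2).injective (by rw [map_pow, map_one, sq, h2]))
  -- the action of the radical quotient
  let c : X →* MulAut V := (MulAut.conjNormal : X ⧸ Φ' →* MulAut V).comp π0
  have hker : c.ker = Q := by
    have hact : ∀ x, x ∈ c.ker → ∀ w ∈ Q, x * w * x⁻¹ * w⁻¹ ∈ Φ' := by
      intro x hx w hw
      have h1 := congrArg Subtype.val (DFunLike.congr_fun (MonoidHom.mem_ker.1 hx) (⟨π0 w, w, hw, rfl⟩ : V))
      have h1' : π0 x * π0 w * (π0 x)⁻¹ = π0 w := by simpa [c] using h1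
      refine (QuotientGroup.eq_one_iff _).1 ?_
      show π0 (x * w * x⁻¹ * w⁻¹) = 1
      rw [map_mul, map_mul, map_mul, map_inv, map_inv, h1', mul_inv_cancel]
    refine le_antisymm ?_ (fun x hx => ?_)
    · refine PSolv.le_pCore (MonoidHom.normal_ker c) fun x => ?_
      obtain ⟨a, m, hm, hd⟩ := Nat.exists_eq_two_pow_mul_odd (orderOf_pos (x : X)).ne'
      refine ⟨a, Subtype.ext ?_⟩
      show (x : X) ^ 2 ^ a = 1
      set y := (x : X) ^ 2 ^ a with hy
      have hym : y ^ m = 1 := by rw [hy, ← pow_mul, ← hd, pow_orderOf_eq_one]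
      have hcop : (orderOf y).Coprime 2 :=
        (hm.of_dvd_nat (orderOf_dvd_of_pow_eq_one hym)).coprime_two_right
      have hyk : y ∈ c.ker := c.ker.pow_mem x.2 _
      have hyQ : y ∈ Q := by
        refine hCQ (Subgroup.mem_centralizer_iff.2 fun w hw => ?_)
        refine (PGroup.commute_of_coprime_of_frattini hQ hcop ?_ ?_ w hw).symm
        · rw [Subgroup.normalizer_eq_top_iff.2 hQn]; trivial
        · intro w' hw'
          have h5 := Subgroup.Normal.conj_mem hΦn _ (hact y hyk w' hw') w'⁻¹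
          rw [show w'⁻¹ * (y * w' * y⁻¹ * w'⁻¹) * w'⁻¹⁻¹ = w'⁻¹ * (y * w' * y⁻¹) by group] at h5
          exact h5
      obtain ⟨k, hk⟩ := hQ ⟨y, hyQ⟩
      have h1 := Nat.eq_one_of_dvd_coprimes (hcop.pow_right k) dvd_rfl
        (orderOf_dvd_of_pow_eq_one (congrArg Subtype.val hk))
      exact orderOf_eq_one_iff.1 h1
    · rw [MonoidHom.mem_ker]
      refine MulEquiv.ext fun v => Subtype.ext ?_
      show ((MulAut.conjNormal (π0 x) v : V) : X ⧸ Φ') = v
      rw [MulAut.conjNormal_apply]
      have := congrArg Subtype.val (mul_comm (⟨π0 x, x, hx, rfl⟩ : V) v)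
      rw [show π0 x * (v : X ⧸ Φ') = (v : X ⧸ Φ') * π0 x from this, mul_inv_cancel_right]
  let act : X ⧸ Q →* MulAut V := QuotientGroup.lift Q c hker.ge
  have hact : Function.Injective act := by
    rw [injective_iff_map_eq_one]
    intro q
    refine QuotientGroup.induction_on q fun x hx => ?_
    rw [QuotientGroup.eq_one_iff, ← hker]
    exact hx
  have hbig : 720 ≤ Nat.card (X ⧸ Q) := by
    rcases hiso with ⟨⟨e⟩⟩ | ⟨⟨e⟩⟩ <;> rw [Nat.card_congr e.toEquiv]
    · rw [SubEight.card_perm_fin]; rfl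
    · rw [SubEight.card_alt 8 20160 (by norm_num) rfl]; norm_num
  have hcard : Nat.card V = 16 := by
    by_contra hne
    have h8 : Nat.card V ≤ 8 := by
      have hVQ : IsPGroup 2 V := hQ.map π0
      obtain ⟨k, hk⟩ := hVQ.exists_card_eq
      rw [hk] at hV16 hne ⊢
      have : k ≤ 4 := by
        by_contra hk4
        have : 2 ^ 5 ≤ 2 ^ k := Nat.pow_le_pow_right (by norm_num) (by omega)
        omega
      interval_cases k <;> simp_all
    have := (Nat.card_le_card_of_injective act hact).trans (card_mulAut_small h2 h8)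
    omega
  obtain ⟨e⟩ := alt_eight_equiv_mulAut h2 hcard
  let fQ : X ⧸ Q →* alternatingGroup (Fin 8) := e.symm.toMonoidHom.comp act
  obtain ⟨ι, hι, hfree⟩ := exists_six fQ (e.symm.injective.comp hact) hiso
  let qbar : X ⧸ Φ' →* X ⧸ Q := QuotientGroup.map Φ' Q (MonoidHom.id X) hΦQ
  let L : Subgroup (X ⧸ Φ') := ι.range.comap qbar
  have hqker : ∀ y : X ⧸ Φ', qbar y = 1 ↔ y ∈ V := by
    intro y
    constructor
    · refine QuotientGroup.induction_on y fun x hx => ?_
      exact ⟨x, (QuotientGroup.eq_one_iff x).1 hx, rfl⟩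
    · rintro ⟨x, hx, rfl⟩
      exact (QuotientGroup.eq_one_iff x).2 hx
  have hVL : V ≤ L := fun y hy => ⟨1, by rw [map_one, (hqker y).2 hy]⟩
  let eι : Perm (Fin 6) ≃* ι.range := MonoidHom.ofInjective hι
  let π : L →* Perm (Fin 6) :=
    eι.symm.toMonoidHom.comp ((qbar.comp L.subtype).codRestrict ι.range (fun l => l.2))
  have hπval : ∀ l : L, ι (π l) = qbar l := fun l =>
    congrArg Subtype.val (eι.apply_symm_apply ⟨qbar l, l.2⟩)
  have hπ : Function.Surjective π := by
    intro T
    obtain ⟨x, hx⟩ := QuotientGroup.mk'_surjective Q (ι T)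
    refine ⟨⟨π0 x, ⟨T, ?_⟩⟩, hι ?_⟩
    · rw [← hx]; rfl
    · rw [hπval]
      exact (rfl : _ = QuotientGroup.mk' Q x).trans hx
  have hπker : π.ker = V.subgroupOf L := by
    ext l
    rw [MonoidHom.mem_ker, Subgroup.mem_subgroupOf, ← hqker, ← hπval,
      map_eq_one_iff ι hι]
  let eV : V.subgroupOf L ≃* V := Subgroup.subgroupOfEquivOfLe hVL
  refine not_sectional_four (V.subgroupOf L) (fun v hv => Subtype.ext (hV2 _ hv))
    ((Nat.card_congr eV.toEquiv).trans hcard) π hπ hπker (fQ.comp ι)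
    ((e.symm.injective.comp hact).comp hι) (e.trans (MulAut.congr eV.symm)) ?_ hfree ?_
  · intro l
    refine MulEquiv.ext fun v => ?_
    apply eV.injective
    show eV (MulAut.conjNormal l v) = eV ((MulAut.congr eV.symm) (e (e.symm (act (ι (π l))))) v)
    rw [MulEquiv.apply_symm_apply, hπval]
    show eV (MulAut.conjNormal l v) = eV (eV.symm (act (qbar l) (eV v)))
    rw [MulEquiv.apply_symm_apply]
    obtain ⟨x, hx⟩ := QuotientGroup.mk'_surjective Φ' (l : X ⧸ Φ')
    have hq : qbar (l : X ⧸ Φ') = QuotientGroup.mk' Q x := by rw [← hx]; rfl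
    rw [hq]
    apply Subtype.ext
    show ((MulAut.conjNormal l v : V.subgroupOf L) : L).1 = ((c x) (eV v) : V).1
    show ((MulAut.conjNormal l v : V.subgroupOf L) : L).1 = ((MulAut.conjNormal (π0 x)) (eV v) : V).1
    rw [MulAut.conjNormal_apply, MulAut.conjNormal_apply]
    show ((l : X ⧸ Φ') * _ * (l : X ⧸ Φ')⁻¹) = _
    rw [← hx]
    rfl
  · -- sections of `L` are sections of `X`
    intro H N _ A hA hpow
    have hq : SectionalPRankLE 2 4 (X ⧸ Φ') := by
      intro H' N' _ A' hA' hpow'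
      let H₀ : Subgroup X := H'.comap π0
      let r : H₀ →* H' := π0.subgroupComap H'
      have hr : Function.Surjective r :=
        MonoidHom.subgroupComap_surjective_of_surjective π0 H' (QuotientGroup.mk'_surjective Φ')
      let ψ : H₀ →* H' ⧸ N' := (QuotientGroup.mk' N').comp r
      have hψ : Function.Surjective ψ := (QuotientGroup.mk'_surjective N').comp hr
      let q : H₀ ⧸ ψ.ker ≃* H' ⧸ N' := QuotientGroup.quotientKerEquivOfSurjective ψ hψ
      haveI := hA'
      have h1 := h4 H₀ ψ.ker (A'.map q.symm.toMonoidHom)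
        (Subgroup.map_isMulCommutative A' q.symm.toMonoidHom) (by
          rintro _ ⟨a, ha, rfl⟩
          rw [← map_pow, hpow' a ha, map_one])
      rwa [← Nat.card_congr (A'.equivMapOfInjective q.symm.toMonoidHom q.symm.injective).toEquiv] at h1
    exact sectional_of_injective L.subtype Subtype.val_injective hq H N A hA hpow

end Cfsg.Agent.TwoAut.RankFive
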