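import Cfsg.Prelude.Def_CaseTheorems
import Cfsg.Prelude.Def_Local
import Cfsg.Prelude.Def_Transfer
import Cfsg.Agent.PGroup.Basic
import Cfsg.Agent.TwoAut.CentralTau
import Cfsg.Agent.TwoAut.MinusType
import Cfsg.Agent.TwoAut.FreeInvolution
import Cfsg.Agent.TwoAut.RankFiveMain

/-!
# The 2-radical under a quotient containing `A₅`
-/

set_option autoImplicit false
set_option linter.all false
set_option maxHeartbeats 1600000

namespace Cfsg.Agent.TwoAut.OrderFive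

open Cfsg Cfsg.Agent
open scoped commutatorElement

universe u v

theorem sectional_of_surjective {X : Type u} [Group X] {Y : Type v} [Group Y] {p k : ℕ}
    (π0 : X →* Y) (hπ : Function.Surjective π0) (h4 : SectionalPRankLE p k X) :
    SectionalPRankLE p k Y := by
  intro H' N' _ A' hA' hpow'
  let H₀ : Subgroup X := H'.comap π0
  let r : H₀ →* H' := π0.subgroupComap H'
  have hr : Function.Surjective r := MonoidHom.subgroupComap_surjective_of_surjective π0 H' hπ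
  let ψ : H₀ →* H' ⧸ N' := (QuotientGroup.mk' N').comp r
  have hψ : Function.Surjective ψ := (QuotientGroup.mk'_surjective N').comp hr
  let q : H₀ ⧸ ψ.ker ≃* H' ⧸ N' := QuotientGroup.quotientKerEquivOfSurjective ψ hψ
  haveI := hA'
  have h1 := h4 H₀ ψ.ker (A'.map q.symm.toMonoidHom)
    (Subgroup.map_isMulCommutative A' q.symm.toMonoidHom) (by
      rintro _ ⟨a, ha, rfl⟩
      rw [← map_pow, hpow' a ha, map_one])
  rwa [← Nat.card_congr (A'.equivMapOfInjective q.symm.toMonoidHom q.symm.injective).toEquiv] at h1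

variable {X : Type u} [Group X]

/-- The smallest candidate for a central elementary quotient of `M` below `Q`. -/
def below (Q M : Subgroup X) : Subgroup X :=
  Subgroup.closure ({x | ∃ f ∈ M, x = f * f} ∪ {x | ∃ q ∈ Q, ∃ f ∈ M, x = ⁅q, f⁆})

instance below_normal (Q M : Subgroup X) [Q.Normal] [M.Normal] : (below Q M).Normal := by
  refine ⟨fun n hn g => ?_⟩
  have hle : below Q M ≤ (below Q M).comap (MulAut.conj g).toMonoidHom := by
    refine (Subgroup.closure_le _).2 ?_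
    rintro x (⟨f, hf, rfl⟩ | ⟨q, hq, f, hf, rfl⟩)
    · refine Subgroup.subset_closure (Or.inl ⟨g * f * g⁻¹, (inferInstance : M.Normal).conj_mem f hf g, ?_⟩)
      simp [mul_assoc]
    · refine Subgroup.subset_closure (Or.inr ⟨g * q * g⁻¹, (inferInstance : Q.Normal).conj_mem q hq g,
        g * f * g⁻¹, (inferInstance : M.Normal).conj_mem f hf g, ?_⟩)
      simp [commutatorElement_def, mul_assoc]
  exact hle hn

theorem below_le {Q M : Subgroup X} [M.Normal] : below Q M ≤ M := by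
  refine (Subgroup.closure_le _).2 ?_
  rintro x (⟨f, hf, rfl⟩ | ⟨q, hq, f, hf, rfl⟩)
  · exact M.mul_mem hf hf
  · exact M.mul_mem ((inferInstance : M.Normal).conj_mem f hf q) (M.inv_mem hf)

theorem below_lt [Finite X] {Q M : Subgroup X} [M.Normal] (hQ : IsPGroup 2 Q) (hMQ : M ≤ Q)
    (hM : M ≠ ⊥) : below Q M ≠ M := by
  haveI : Fact (Nat.Prime 2) := ⟨Nat.prime_two⟩
  let M' : Subgroup Q := M.subgroupOf Q
  have hcard : Nat.card M' = Nat.card M := Nat.card_congr (Subgroup.subgroupOfEquivOfLe hMQ).toEquiv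
  obtain ⟨k, hk⟩ := (hQ.to_subgroup M').exists_card_eq
  have hk0 : 0 < k := by
    by_contra h
    rw [show k = 0 by omega, pow_zero, hcard] at hk
    exact hM (Subgroup.card_eq_one.1 hk)
  obtain ⟨K, hKn, -, hKM, hK⟩ := PGroup.exists_normal_card_eq hQ (N := ⊥) (M := M') (k := k - 1)
    bot_le (by rw [Subgroup.card_bot]; exact Nat.one_le_two_pow)
    (by rw [hk]; exact Nat.pow_le_pow_right two_pos (Nat.sub_le k 1))
  have hidx : (K.subgroupOf M').index = 2 := by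
    have := (K.subgroupOf M').card_mul_index
    rw [Nat.card_congr (Subgroup.subgroupOfEquivOfLe hKM).toEquiv, hK, hk] at this
    have h2 : 2 ^ k = 2 ^ (k - 1) * 2 := by rw [← pow_succ, Nat.sub_add_cancel hk0]
    rw [h2] at this
    exact Nat.eq_of_mul_eq_mul_left (by positivity) this
  intro he
  have hle : M ≤ K.map Q.subtype := by
    conv_lhs => rw [← he]
    refine (Subgroup.closure_le _).2 ?_
    rintro x (⟨f, hf, rfl⟩ | ⟨q, hq, f, hf, rfl⟩)
    · exact ⟨⟨f, hMQ hf⟩ * ⟨f, hMQ hf⟩,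
        Subgroup.mul_self_mem_of_index_two hidx (⟨⟨f, hMQ hf⟩, hf⟩ : M'), rfl⟩
    · let fq : Q := ⟨f, hMQ hf⟩
      let qq : Q := ⟨q, hq⟩
      refine ⟨(qq * fq * qq⁻¹) * fq⁻¹, ?_, rfl⟩
      have h1 : qq * fq * qq⁻¹ ∈ K ↔ fq ∈ K := by
        constructor
        · intro h
          have := hKn.conj_mem _ h qq⁻¹
          rwa [show qq⁻¹ * (qq * fq * qq⁻¹) * qq⁻¹⁻¹ = fq by group] at this
        · exact fun h => hKn.conj_mem _ h qq
      have hc : qq * fq * qq⁻¹ ∈ M' := (inferInstance : M.Normal).conj_mem f hf q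
      refine (Subgroup.mul_mem_iff_of_index_two hidx (a := (⟨_, hc⟩ : M'))
        (b := (⟨fq⁻¹, M'.inv_mem hf⟩ : M'))).2 ?_
      show qq * fq * qq⁻¹ ∈ K ↔ fq⁻¹ ∈ K
      rw [h1, inv_mem_iff]
  have h1 := Subgroup.card_le_of_le hle
  rw [← Nat.card_congr (K.equivMapOfInjective Q.subtype Subtype.val_injective).toEquiv, hK,
    ← hcard, hk] at h1
  have h2 : 2 ^ (k - 1) < 2 ^ k := Nat.pow_lt_pow_right (by norm_num) (by omega)
  omega

/-- A layer inside a quotient of `X`. -/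
theorem layer_map [Finite X] (Q Φ Ψ : Subgroup X) [Q.Normal] [Φ.Normal] [Ψ.Normal] (hQ : IsPGroup 2 Q)
    (hΨ : Ψ ≤ Φ) (hΦ : Φ ≤ Q) (hidx : Φ.relIndex Q = 16) (r : X) (h5 : r ^ 5 = 1)
    (hfpf : ∀ q ∈ Q, q⁻¹ * (r * q * r⁻¹) ∈ Φ → q ∈ Φ) [(Q.map (QuotientGroup.mk' Ψ)).Normal] :
    Layer ((Φ.map (QuotientGroup.mk' Ψ)).subgroupOf (Q.map (QuotientGroup.mk' Ψ)))
      (MulAut.conjNormal (QuotientGroup.mk' Ψ r)) where
  pgroup := hQ.map _
  index := by
    show (Φ.map (QuotientGroup.mk' Ψ)).relIndex (Q.map (QuotientGroup.mk' Ψ)) = 16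
    have e : ∀ K : Subgroup X, Nat.card (K.map (QuotientGroup.mk' Ψ)) = Ψ.relIndex K := fun K => by
      rw [← Subgroup.relIndex_ker K (QuotientGroup.mk' Ψ), QuotientGroup.ker_mk']
    have h1 := card_mul_rel (Subgroup.map_mono (f := QuotientGroup.mk' Ψ) hΦ)
    rw [e, e, ← Subgroup.relIndex_mul_relIndex Ψ Φ Q hΨ hΦ, hidx] at h1
    have hpos : Ψ.relIndex Φ ≠ 0 := by
      intro h0
      have := card_mul_rel hΨ
      rw [h0, mul_zero] at this
      exact Nat.card_pos.ne this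
    exact Nat.eq_of_mul_eq_mul_left (Nat.pos_of_ne_zero hpos) h1
  five := by rw [← map_pow, ← map_pow, h5, map_one, map_one]
  stable := by
    intro x hx
    haveI : (Φ.map (QuotientGroup.mk' Ψ)).Normal :=
      (inferInstance : Φ.Normal).map _ (QuotientGroup.mk'_surjective Ψ)
    show ((MulAut.conjNormal (QuotientGroup.mk' Ψ r) x : Q.map (QuotientGroup.mk' Ψ)) : X ⧸ Ψ) ∈
      Φ.map (QuotientGroup.mk' Ψ)
    rw [MulAut.conjNormal_apply]
    exact (inferInstance : (Φ.map (QuotientGroup.mk' Ψ)).Normal).conj_mem (x : X ⧸ Ψ) hx _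
  fpf := by
    intro x hx
    obtain ⟨q, hq, hqx⟩ := x.2
    have hx' : (x : X ⧸ Ψ)⁻¹ * ((MulAut.conjNormal (QuotientGroup.mk' Ψ r) x : Q.map (QuotientGroup.mk' Ψ)) : X ⧸ Ψ) ∈
        Φ.map (QuotientGroup.mk' Ψ) := hx
    rw [MulAut.conjNormal_apply, ← hqx, ← map_inv, ← map_inv, ← map_mul, ← map_mul, ← map_mul,
      ← Subgroup.mem_comap, Subgroup.comap_map_eq_self (by rw [QuotientGroup.ker_mk']; exact hΨ)] at hx'
    exact ⟨q, hfpf q hq hx', hqx⟩

theorem card_quot_le [Finite X] (h4 : SectionalPRankLE 2 4 X) (A B : Subgroup X) [B.Normal]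
    (hsq : ∀ a ∈ A, a * a ∈ B) : Nat.card (A ⧸ B.subgroupOf A) ≤ 16 := by
  have h2 : ∀ a : A ⧸ B.subgroupOf A, a * a = 1 := fun a => QuotientGroup.induction_on a fun w =>
    (QuotientGroup.eq_one_iff _).2 (hsq w w.2)
  have hi : ∀ a : A ⧸ B.subgroupOf A, a⁻¹ = a := fun a => inv_eq_of_mul_eq_one_right (h2 a)
  have h := h4 A (B.subgroupOf A) ⊤ ⟨⟨fun a b => Subtype.ext (by
    show (a : A ⧸ B.subgroupOf A) * b = b * a
    rw [← hi ((a : A ⧸ B.subgroupOf A) * b), mul_inv_rev, hi, hi])⟩⟩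
    (fun a _ => by rw [sq]; exact h2 a)
  rwa [Subgroup.card_top] at h

theorem radical_a_five [Finite X] (hc : IsPConstrained 2 X) (hO : oddCore X = ⊥)
    (h4 : SectionalPRankLE 2 4 X) (ι : alternatingGroup (Fin 5) →* X ⧸ pCore 2 X)
    (hι : Function.Injective ι) :
    (IsElementaryAbelian 2 (pCore 2 X) ∧ Nat.card ↥(pCore 2 X) = 16) ∨
      (Nat.card ↥(pCore 2 X) = 32 ∧ ∃ A B : Subgroup ↥(pCore 2 X),
        Nonempty (↥A ≃* QuaternionGroup 2) ∧ Nonempty (↥B ≃* DihedralGroup 4) ∧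
          (∀ a ∈ A, ∀ b ∈ B, a * b = b * a) ∧ A ⊔ B = ⊤ ∧
          A ⊓ B = Subgroup.center ↥(pCore 2 X)) := by
  classical
  haveI : Fact (Nat.Prime 2) := ⟨Nat.prime_two⟩
  haveI : Fact (Nat.Prime 5) := ⟨by norm_num⟩
  set Q := pCore 2 X with hQdef
  haveI hQn : Q.Normal := inferInstance
  have hQ : IsPGroup 2 Q := PSolv.isPGroup_pCore 2 X
  have hCQ := PSolv.centralizer_pCore_le_of_isPConstrained hc hO
  let π : X →* X ⧸ Q := QuotientGroup.mk' Q
  have hπ : ∀ x, π x = 1 ↔ x ∈ Q := fun x => QuotientGroup.eq_one_iff x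
  -- elements of `A₅`
  obtain ⟨a, b, c, ha5, ha1, hbab, hb2, hb1, hc3, hc1⟩ : ∃ a b c : alternatingGroup (Fin 5),
      a ^ 5 = 1 ∧ a ≠ 1 ∧ b * a * b⁻¹ = a⁻¹ ∧ b * b = 1 ∧ b ≠ 1 ∧ c ^ 3 = 1 ∧ c ≠ 1 :=
    ⟨⟨Equiv.swap 0 1 * Equiv.swap 1 2 * Equiv.swap 2 3 * Equiv.swap 3 4,
        Equiv.Perm.mem_alternatingGroup.2 (by decide +kernel)⟩,
      ⟨Equiv.swap 1 4 * Equiv.swap 2 3, Equiv.Perm.mem_alternatingGroup.2 (by decide +kernel)⟩,
      ⟨Equiv.swap 0 1 * Equiv.swap 1 2, Equiv.Perm.mem_alternatingGroup.2 (by decide +kernel)⟩,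
      by decide +kernel⟩
  -- lifts of elements of odd prime order
  have lift : ∀ (s : alternatingGroup (Fin 5)) (p : ℕ), p.Prime → p ≠ 2 → s ^ p = 1 → s ≠ 1 →
      ∃ (r : X) (k : ℕ), r ^ p = 1 ∧ π r = ι (s ^ k) ∧ s ^ k ≠ 1 := by
    intro s p hp hp2 hs hs1
    obtain ⟨r0, hr0⟩ := QuotientGroup.mk'_surjective Q (ι s)
    have hq : r0 ^ p ∈ Q := by
      rw [← hπ, map_pow]
      show (QuotientGroup.mk' Q r0) ^ p = 1
      rw [hr0, ← map_pow, hs, map_one]
    obtain ⟨k, hk⟩ := hQ ⟨_, hq⟩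
    refine ⟨r0 ^ 2 ^ k, 2 ^ k, ?_, ?_, ?_⟩
    · rw [← pow_mul, mul_comm, pow_mul]; exact congrArg Subtype.val hk
    · rw [map_pow, map_pow]
      exact congrArg (· ^ 2 ^ k) hr0
    · intro h
      haveI : Fact p.Prime := ⟨hp⟩
      have h1 := orderOf_dvd_of_pow_eq_one h
      rw [orderOf_eq_prime hs hs1] at h1
      exact hp2 ((Nat.prime_dvd_prime_iff_eq hp Nat.prime_two).1 (hp.dvd_of_dvd_pow h1))
  obtain ⟨r, k, hr5, hrπ, hak⟩ := lift a 5 (by norm_num) (by norm_num) ha5 ha1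
  obtain ⟨g, l, hg3, hgπ, hcl⟩ := lift c 3 (by norm_num) (by norm_num) hc3 hc1
  obtain ⟨a', ha'⟩ : ∃ a', a ^ k = a' := ⟨_, rfl⟩
  rw [ha'] at hrπ hak
  have ha'5 : a' ^ 5 = 1 := by rw [← ha', ← pow_mul, mul_comm, pow_mul, ha5, one_pow]
  have hba' : a' * b * a' = b := by
    have h1 : b * a' * b⁻¹ = a'⁻¹ := by rw [← ha', ← conj_pow, hbab, inv_pow]
    have : b * a' = a'⁻¹ * b := by rw [← h1, inv_mul_cancel_right]
    rw [mul_assoc, this, mul_inv_cancel_left]
  -- an element inverting `r`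
  obtain ⟨u, huπ, hur⟩ : ∃ u, π u = ι b ∧ u * r * u⁻¹ = r⁻¹ := by
    obtain ⟨u0, hu0⟩ := QuotientGroup.mk'_surjective Q (ι b)
    let α := {x : X // π x = ι b}
    have hmem : ∀ x, π x = ι b ↔ π (r * x * r) = ι b := fun x => by
      rw [map_mul, map_mul, hrπ]
      constructor
      · intro h; rw [h, ← map_mul, ← map_mul, hba']
      · intro h
        calc π x = (ι a')⁻¹ * (ι a' * π x * ι a') * (ι a')⁻¹ := by group
          _ = ι b := by
            rw [h, ← map_inv, ← map_mul, ← map_mul]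
            congr 1
            conv_lhs => rw [← hba']
            group
    let e : Equiv.Perm α :=
      Equiv.Perm.subtypePerm ((Equiv.mulLeft r).trans (Equiv.mulRight r)) (fun x => (hmem x).symm)
    have he : ∀ x : α, (e x : X) = r * x.1 * r := fun x => rfl
    have he5 : e ^ 5 = 1 := by
      refine Equiv.ext fun x => Subtype.ext ?_
      show (e (e (e (e (e x)))) : X) = x.1
      simp only [he]
      calc r * (r * (r * (r * (r * x.1 * r) * r) * r) * r) * r = r ^ 5 * x.1 * r ^ 5 := by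
            simp [pow_succ, mul_assoc]
        _ = x.1 := by rw [hr5, one_mul, mul_one]
    have hm := perm_modEq_fixed 5 e he5
    have hcardα : Nat.card α = Nat.card Q := by
      refine Nat.card_congr ⟨fun x => ⟨u0⁻¹ * x.1, ?_⟩, fun q => ⟨u0 * q.1, ?_⟩, fun x => ?_, fun q => ?_⟩
      · rw [← hπ, map_mul, map_inv, x.2]
        show (QuotientGroup.mk' Q u0)⁻¹ * _ = 1
        rw [hu0, inv_mul_cancel]
      · rw [map_mul, (hπ q.1).2 q.2, mul_one]; exact hu0
      · exact Subtype.ext (mul_inv_cancel_left _ _)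
      · exact Subtype.ext (inv_mul_cancel_left _ _)
    obtain ⟨j, hj⟩ := hQ.exists_card_eq
    have hne : Nat.card {x // e x = x} ≠ 0 := by
      intro h
      rw [h, hcardα, hj] at hm
      have h5 : 5 ∣ 2 ^ j := Nat.modEq_zero_iff_dvd.1 hm
      have := Nat.Prime.dvd_of_dvd_pow (by norm_num) h5
      norm_num at this
    obtain ⟨⟨x, hx⟩⟩ := (Nat.card_ne_zero.1 hne).1
    refine ⟨x.1, x.2, ?_⟩
    have h1 : r * x.1 * r = x.1 := congrArg Subtype.val hx
    calc x.1 * r * x.1⁻¹ = r⁻¹ * (r * x.1 * r) * x.1⁻¹ := by group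
      _ = r⁻¹ := by rw [h1, mul_inv_cancel_right]
  have huQ : u ∉ Q := fun h => hb1 (hι (by rw [map_one, ← huπ, (hπ u).2 h]))
  have huu : u * u ∈ Q := by rw [← hπ, map_mul, huπ, ← map_mul, hb2, map_one]
  have hrQ : r ∉ Q := fun h => hak (hι (by rw [map_one, ← hrπ, (hπ r).2 h]))
  have hgQ : g ∉ Q := fun h => hcl (hι (by rw [map_one, ← hgπ, (hπ g).2 h]))
  -- the Frattini layer
  let Φ : Subgroup X := Subgroup.closure {x | ∃ q ∈ Q, x = q * q}
  have hΦQ : Φ ≤ Q := (Subgroup.closure_le _).2 (by rintro x ⟨q, hq, rfl⟩; exact Q.mul_mem hq hq)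
  have hsqΦ : ∀ q ∈ Q, q * q ∈ Φ := fun q hq => Subgroup.subset_closure ⟨q, hq, rfl⟩
  haveI hΦn : Φ.Normal := by
    refine ⟨fun n hn w => ?_⟩
    have hle : Φ ≤ Φ.comap (MulAut.conj w).toMonoidHom := by
      refine (Subgroup.closure_le _).2 ?_
      rintro x ⟨q, hq, rfl⟩
      refine Subgroup.subset_closure ⟨w * q * w⁻¹, hQn.conj_mem q hq w, ?_⟩
      simp [mul_assoc]
    exact hle hn
  have hΦfr : Φ ≤ (frattini ↥Q).map Q.subtype := (Subgroup.closure_le _).2 (by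
    rintro x ⟨q, hq, rfl⟩
    exact ⟨_, PGroup.pow_mem_frattini hQ ⟨q, hq⟩, by simp [sq]⟩)
  have hnontriv : ∀ (s : X) (p : ℕ), p.Prime → p ≠ 2 → s ^ p = 1 → s ∉ Q →
      ∃ q ∈ Q, q⁻¹ * (s * q * s⁻¹) ∉ Φ := by
    intro s p hp hp2 hs hsQ
    by_contra hno
    push Not at hno
    refine hsQ (hCQ (Subgroup.mem_centralizer_iff.2 fun w hw => ?_))
    have hcop : (orderOf s).Coprime 2 :=
      Nat.Coprime.coprime_dvd_left (orderOf_dvd_of_pow_eq_one hs)
        ((Nat.coprime_primes hp Nat.prime_two).2 hp2)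
    exact (PGroup.commute_of_coprime_of_frattini hQ hcop
      (by rw [Subgroup.normalizer_eq_top_iff.2 hQn]; trivial) (fun x hx => hΦfr (hno x hx)) w hw).symm
  let V := ↥Q ⧸ Φ.subgroupOf Q
  have hV16 : Nat.card V ≤ 16 := card_quot_le h4 Q Φ hsqΦ
  obtain ⟨hidx, hfpfV⟩ : Φ.relIndex Q = 16 ∧ ∀ q ∈ Q, q⁻¹ * (r * q * r⁻¹) ∈ Φ → q ∈ Φ := by
    have hst : (Φ.subgroupOf Q).map (MulAut.conjNormal r : MulAut Q).toMonoidHom = Φ.subgroupOf Q := by
      refine Subgroup.eq_of_le_of_card_ge ?_ ?_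
      · rintro _ ⟨x, hx, rfl⟩
        show ((MulAut.conjNormal r x : Q) : X) ∈ Φ
        rw [MulAut.conjNormal_apply]
        exact hΦn.conj_mem _ hx r
      · exact (Subgroup.card_map_of_injective (MulAut.conjNormal r : MulAut Q).injective).ge
    let ρV : MulAut V := QuotientGroup.congr _ _ (MulAut.conjNormal r) hst
    have hρmk : ∀ q : Q, ρV (QuotientGroup.mk q) = QuotientGroup.mk (MulAut.conjNormal r q) :=
      fun q => rfl
    have h5 : ρV ^ 5 = 1 := by
      refine MulEquiv.ext fun v => QuotientGroup.induction_on v fun q => ?_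
      show ρV (ρV (ρV (ρV (ρV (QuotientGroup.mk q))))) = QuotientGroup.mk q
      simp only [hρmk]
      have : (MulAut.conjNormal r : MulAut Q) ^ 5 = 1 := by rw [← map_pow, hr5, map_one]
      exact congrArg _ (DFunLike.congr_fun this q)
    have hne : ρV ≠ 1 := by
      intro h
      obtain ⟨q, hq, hqn⟩ := hnontriv r 5 (by norm_num) (by norm_num) hr5 hrQ
      apply hqn
      have h1 := DFunLike.congr_fun h (QuotientGroup.mk (⟨q, hq⟩ : Q))
      rw [hρmk] at h1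
      have h2 := QuotientGroup.eq.1 h1.symm
      rw [Subgroup.mem_subgroupOf] at h2
      simpa using h2
    obtain ⟨h16, hfix⟩ := five_fpf (hQ.to_quotient _) hV16 ρV h5 hne
    refine ⟨by rw [Subgroup.relIndex, Subgroup.index_eq_card]; exact h16, fun q hq h => ?_⟩
    have := hfix (QuotientGroup.mk ⟨q, hq⟩) (by
      rw [hρmk]
      refine (QuotientGroup.eq.2 ?_).symm
      rw [Subgroup.mem_subgroupOf]
      simpa using h)
    exact (QuotientGroup.eq_one_iff (⟨q, hq⟩ : Q)).1 this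
  by_cases hΦ1 : Φ = ⊥
  · left
    have hone : ∀ q ∈ Q, q * q = 1 := fun q hq => Subgroup.mem_bot.1 (hΦ1 ▸ hsqΦ q hq)
    have hi : ∀ q ∈ Q, q⁻¹ = q := fun q hq => inv_eq_of_mul_eq_one_right (hone q hq)
    refine ⟨⟨⟨⟨fun x y => Subtype.ext ?_⟩⟩, fun q hq => by rw [sq]; exact hone q hq⟩, ?_⟩
    · show (x : X) * y = y * x
      rw [← hi _ (Q.mul_mem x.2 y.2), mul_inv_rev, hi _ x.2, hi _ y.2]
    · rw [hΦ1, Subgroup.relIndex_bot_left] at hidx
      exact hidx
  right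
  -- the first layer
  let Ψ : Subgroup X := below Q Φ
  have hΨΦ : Ψ ≤ Φ := below_le
  let π0 : X →* X ⧸ Ψ := QuotientGroup.mk' Ψ
  have hπ0 : Function.Surjective π0 := QuotientGroup.mk'_surjective Ψ
  have hpre : ∀ {K : Subgroup X}, Ψ ≤ K → ∀ {x}, π0 x ∈ K.map π0 → x ∈ K := by
    intro K hK x hx
    rwa [← Subgroup.mem_comap, Subgroup.comap_map_eq_self (by rw [QuotientGroup.ker_mk']; exact hK)] at hx
  haveI hQ'n : (Q.map π0).Normal := hQn.map π0 hπ0
  haveI hΦ'n : (Φ.map π0).Normal := hΦn.map π0 hπ0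
  have hF2 : ∀ f ∈ Φ.map π0, f * f = 1 := by
    rintro _ ⟨f, hf, rfl⟩
    rw [← map_mul]
    exact (QuotientGroup.eq_one_iff _).2 (Subgroup.subset_closure (Or.inl ⟨f, hf, rfl⟩))
  have hFc : ∀ f ∈ Φ.map π0, ∀ q ∈ Q.map π0, f * q = q * f := by
    rintro _ ⟨f, hf, rfl⟩ _ ⟨q, hq, rfl⟩
    refine Eq.symm ?_
    rw [← commutatorElement_eq_one_iff_mul_comm, ← map_commutatorElement]
    exact (QuotientGroup.eq_one_iff _).2 (Subgroup.subset_closure (Or.inr ⟨q, hq, f, hf, rfl⟩))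
  have hsqF : ∀ q ∈ Q.map π0, q * q ∈ Φ.map π0 := by
    rintro _ ⟨q, hq, rfl⟩
    exact ⟨q * q, hsqΦ q hq, map_mul π0 q q⟩
  have hcardF : Nat.card (Φ.map π0) = Nat.card (Φ ⧸ Ψ.subgroupOf Φ) := by
    rw [← Subgroup.relIndex_ker Φ π0, QuotientGroup.ker_mk', Subgroup.relIndex, Subgroup.index_eq_card]
  have hF16 : Nat.card (Φ.map π0) ≤ 16 :=
    hcardF ▸ card_quot_le h4 Φ Ψ (fun f hf => Subgroup.subset_closure (Or.inl ⟨f, hf, rfl⟩))
  have L := layer_map Q Φ Ψ hQ hΨΦ hΦQ hidx r hr5 hfpfV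
  -- `r` centralises the first layer
  have hrF : ∀ f ∈ Φ.map π0, π0 r * f * (π0 r)⁻¹ = f := by
    by_contra hne
    push Not at hne
    obtain ⟨f0, hf0, hf0n⟩ := hne
    obtain ⟨h16, hfix⟩ := five_fpf (hQ.to_le hΦQ |>.map π0) hF16
      (MulAut.conjNormal (π0 r) : MulAut (Φ.map π0)) (by rw [← map_pow, ← map_pow, hr5, map_one, map_one])
      (fun h => hf0n (by
        have h' := congrArg Subtype.val (DFunLike.congr_fun h ⟨f0, hf0⟩)
        rw [MulAut.conjNormal_apply] at h'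
        exact h'))
    refine rank_five (Q.map π0) (Φ.map π0) (Subgroup.map_mono hΦQ) hFc hF2 hsqF h16 L.index
      (π0 r) (π0 u) (by rw [← map_pow, hr5, map_one])
      (by rw [← map_inv, ← map_mul, ← map_mul, hur, map_inv])
      (fun h => huQ (hpre (hΨΦ.trans hΦQ) h)) (by rw [← map_mul]; exact ⟨_, huu, rfl⟩) ?_ ?_
      (sectional_of_surjective π0 hπ0 h4)
    · intro f hf h
      exact congrArg Subtype.val (hfix ⟨f, hf⟩ (Subtype.ext (by
        rw [MulAut.conjNormal_apply]; exact h)))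
    · rintro _ ⟨q, hq, rfl⟩ h
      rw [← map_inv, ← map_inv, ← map_mul, ← map_mul, ← map_mul] at h
      exact ⟨q, hfpfV q hq (hpre hΨΦ h), rfl⟩
  -- hence so does `g`
  have hgF : ∀ f ∈ Φ.map π0, π0 g * f * (π0 g)⁻¹ = f := by
    let K : Subgroup X := (Subgroup.centralizer (Φ.map π0 : Set (X ⧸ Ψ))).comap π0
    have hK : ∀ x, x ∈ K ↔ ∀ f ∈ Φ.map π0, π0 x * f * (π0 x)⁻¹ = f := fun x => by
      show π0 x ∈ Subgroup.centralizer (Φ.map π0 : Set (X ⧸ Ψ)) ↔ _
      rw [Subgroup.mem_centralizer_iff]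
      exact forall₂_congr fun f _ => ⟨fun h => by rw [← h, mul_inv_cancel_right],
        fun h => (mul_inv_eq_iff_eq_mul.1 h).symm⟩
    haveI hKn : K.Normal := ⟨fun x hx w => (hK _).2 fun f hf => by
      have h1 := (hK x).1 hx _ (hΦ'n.conj_mem f hf (π0 w)⁻¹)
      rw [map_mul, map_mul, map_inv]
      calc π0 w * π0 x * (π0 w)⁻¹ * f * (π0 w * π0 x * (π0 w)⁻¹)⁻¹ =
            π0 w * (π0 x * ((π0 w)⁻¹ * f * (π0 w)⁻¹⁻¹) * (π0 x)⁻¹) * (π0 w)⁻¹ := by group
        _ = f := by rw [h1]; group⟩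
    haveI := hKn.map π (QuotientGroup.mk'_surjective Q)
    let T : Subgroup (alternatingGroup (Fin 5)) := (K.map π).comap ι
    haveI : T.Normal := Subgroup.Normal.comap inferInstance ι
    have hT : T = ⊤ := by
      refine ((alternatingGroup.isSimpleGroup_five).eq_bot_or_eq_top_of_normal T inferInstance).resolve_left
        fun h => hak ?_
      have : a' ∈ T := ⟨r, (hK r).2 hrF, hrπ⟩
      rwa [h, Subgroup.mem_bot] at this
    have hmem : c ^ l ∈ T := hT ▸ Subgroup.mem_top _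
    obtain ⟨w, hw, hwπ⟩ := hmem
    refine (hK g).1 ?_
    have hq : w⁻¹ * g ∈ Q := by rw [← hπ, map_mul, map_inv, hwπ, hgπ, inv_mul_cancel]
    have hqK : w⁻¹ * g ∈ K := (hK _).2 fun f hf => by
      rw [← hFc f hf _ ⟨_, hq, rfl⟩, mul_inv_cancel_right]
    simpa using K.mul_mem hw hqK
  -- the first layer has order two
  have hgenF : (Φ.map π0).subgroupOf (Q.map π0) ≤
      Subgroup.closure (Set.range fun x : Q.map π0 => x * x) := by
    rw [← Subgroup.map_subtype_le_map_subtype, Subgroup.map_subgroupOf_eq_of_le (Subgroup.map_mono hΦQ),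
      MonoidHom.map_closure, MonoidHom.map_closure]
    refine Subgroup.closure_mono ?_
    rintro _ ⟨_, ⟨q, hq, rfl⟩, rfl⟩
    exact ⟨_, ⟨⟨π0 q, q, hq, rfl⟩, rfl⟩, (map_mul π0 q q).symm⟩
  have hF2' := card_le_two (γ := (MulAut.conjNormal (π0 g) : MulAut (Q.map π0))) L
    (fun x hx => Subgroup.mem_center_iff.2 fun y => Subtype.ext (hFc x hx y y.2).symm)
    (fun x hx => Subtype.ext (hF2 x hx)) (fun x => hsqF x x.2) hgenF
    (fun x hx => Subtype.ext (by rw [MulAut.conjNormal_apply]; exact hrF x hx))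
    (by rw [← map_pow, ← map_pow, hg3, map_one, map_one])
    (fun x hx => Subtype.ext (by rw [MulAut.conjNormal_apply]; exact hgF x hx))
    (by
      obtain ⟨q, hq, hqn⟩ := hnontriv g 3 (by norm_num) (by norm_num) hg3 hgQ
      refine ⟨⟨π0 q, q, hq, rfl⟩, fun h => hqn (hpre hΨΦ ?_)⟩
      have h' : (π0 q)⁻¹ * ((MulAut.conjNormal (π0 g) (⟨π0 q, q, hq, rfl⟩ : Q.map π0) : Q.map π0) : X ⧸ Ψ)
          ∈ Φ.map π0 := h
      rw [MulAut.conjNormal_apply] at h'
      simpa using h')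
  have hF2' : Nat.card (Φ.map π0) ≤ 2 :=
    (Nat.card_congr (Subgroup.subgroupOfEquivOfLe (Subgroup.map_mono hΦQ)).toEquiv).symm.trans_le hF2'
  have hΨne : Ψ ≠ Φ := below_lt hQ hΦQ hΦ1
  obtain ⟨z, hzΦ, hzΨ⟩ : ∃ z ∈ Φ, z ∉ Ψ := by
    by_contra h
    push Not at h
    exact hΨne (le_antisymm hΨΦ h)
  have hmem : ∀ f ∈ Φ, f ∈ Ψ ∨ z⁻¹ * f ∈ Ψ := by
    intro f hf
    by_contra hno
    push Not at hno
    have h3 : 3 ≤ Nat.card (Φ.map π0) := by
      refine le_trans (Nat.card_fin 3).ge (Nat.card_le_card_of_injective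
        (![(1 : Φ.map π0), ⟨π0 z, z, hzΦ, rfl⟩, ⟨π0 f, f, hf, rfl⟩]) ?_)
      have e1 : ∀ {x}, π0 x = 1 → x ∈ Ψ := fun {x} h => (QuotientGroup.eq_one_iff x).1 h
      have e2 : π0 z ≠ π0 f := fun h => hno.2 (QuotientGroup.eq.1 h)
      intro i j h
      fin_cases i <;> fin_cases j <;>
        first
          | rfl
          | exact absurd (e1 (congrArg Subtype.val h).symm) hzΨ
          | exact absurd (e1 (congrArg Subtype.val h)) hzΨ
          | exact absurd (e1 (congrArg Subtype.val h).symm) hno.1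
          | exact absurd (e1 (congrArg Subtype.val h)) hno.1
          | exact absurd (congrArg Subtype.val h) e2
          | exact absurd (congrArg Subtype.val h).symm e2
    omega
  -- there is no second layer
  have hΨ1 : Ψ = ⊥ := by
    by_contra hne
    let Θ : Subgroup X := below Q Ψ
    have hΨQ : Ψ ≤ Q := hΨΦ.trans hΦQ
    have hΘΨ : Θ ≤ Ψ := below_le
    let π1 : X →* X ⧸ Θ := QuotientGroup.mk' Θ
    have hπ1 : Function.Surjective π1 := QuotientGroup.mk'_surjective Θ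
    have hpre1 : ∀ {K : Subgroup X}, Θ ≤ K → ∀ {x}, π1 x ∈ K.map π1 → x ∈ K := by
      intro K hK x hx
      rwa [← Subgroup.mem_comap, Subgroup.comap_map_eq_self (by rw [QuotientGroup.ker_mk']; exact hK)] at hx
    haveI : (Q.map π1).Normal := hQn.map π1 hπ1
    haveI : (Φ.map π1).Normal := hΦn.map π1 hπ1
    have L1 := layer_map Q Φ Θ hQ (hΘΨ.trans hΨΦ) hΦQ hidx r hr5 hfpfV
    let W : Subgroup (Q.map π1) := (Ψ.map π1).subgroupOf (Q.map π1)
    obtain ⟨hzc, hz2⟩ := tau L1 (W := W)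
      (fun w hw => Subgroup.mem_center_iff.2 fun y => by
        obtain ⟨f, hf, hfw⟩ := hw
        obtain ⟨q, hq, hqy⟩ := y.2
        apply Subtype.ext
        show (y : X ⧸ Θ) * w = w * y
        rw [Subgroup.coe_subtype] at hfw
        rw [← hfw, ← hqy, ← commutatorElement_eq_one_iff_mul_comm, ← map_commutatorElement]
        exact (QuotientGroup.eq_one_iff _).2 (Subgroup.subset_closure (Or.inr ⟨q, hq, f, hf, rfl⟩)))
      (fun w hw => by
        obtain ⟨f, hf, hfw⟩ := hw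
        apply Subtype.ext
        show (w : X ⧸ Θ) * w = 1
        rw [Subgroup.coe_subtype] at hfw
        rw [← hfw, ← map_mul]
        exact (QuotientGroup.eq_one_iff _).2 (Subgroup.subset_closure (Or.inl ⟨f, hf, rfl⟩)))
      ⟨π1 z, z, hΦQ hzΦ, rfl⟩ (fun h => hzΨ (hpre1 hΘΨ h))
      (fun x hx => by
        obtain ⟨f, hf, hfx⟩ := hx
        rw [Subgroup.coe_subtype] at hfx
        rcases hmem f hf with h | h
        · exact Or.inl ⟨f, h, hfx⟩
        · right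
          show ((⟨π1 z, z, hΦQ hzΦ, rfl⟩ : Q.map π1)⁻¹ * x : X ⧸ Θ) ∈ Ψ.map π1
          exact ⟨_, h, by rw [map_mul, map_inv, ← hfx]; rfl⟩)
      (fun x => by
        obtain ⟨q, hq, hqx⟩ := x.2
        show (x : X ⧸ Θ) * x ∈ Φ.map π1
        rw [← hqx, ← map_mul]
        exact ⟨_, hsqΦ q hq, rfl⟩)
      (fun x => by
        obtain ⟨q, hq, hqx⟩ := x.2
        show ⁅(x : X ⧸ Θ), π1 z⁆ ∈ Ψ.map π1
        rw [← hqx, ← map_commutatorElement]
        exact ⟨_, Subgroup.subset_closure (Or.inr ⟨q, hq, z, hzΦ, rfl⟩), rfl⟩)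
      (fun w hw => by
        haveI : (Ψ.map π1).Normal := (inferInstance : Ψ.Normal).map π1 hπ1
        show ((MulAut.conjNormal (π1 r) w : Q.map π1) : X ⧸ Θ) ∈ Ψ.map π1
        rw [MulAut.conjNormal_apply]
        exact (inferInstance : (Ψ.map π1).Normal).conj_mem (w : X ⧸ Θ) hw _)
      (by
        show (π1 z)⁻¹ * ((MulAut.conjNormal (π1 r) (⟨π1 z, z, hΦQ hzΦ, rfl⟩ : Q.map π1) : Q.map π1) : X ⧸ Θ)
          ∈ Ψ.map π1
        rw [MulAut.conjNormal_apply]
        refine ⟨z⁻¹ * (r * z * r⁻¹), ?_, by simp⟩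
        refine (QuotientGroup.eq_one_iff _).1 ?_
        show π0 (z⁻¹ * (r * z * r⁻¹)) = 1
        rw [map_mul, map_mul, map_mul, map_inv, map_inv, hrF _ ⟨z, hzΦ, rfl⟩, inv_mul_cancel])
      (by
        by_contra hno
        push Not at hno
        refine hΨne (le_antisymm hΨΦ ((Subgroup.closure_le _).2 ?_))
        rintro x ⟨q, hq, rfl⟩
        refine hpre1 hΘΨ ?_
        rw [map_mul]
        exact hno ⟨π1 q, q, hq, rfl⟩)
    refine below_lt hQ hΨQ hne (le_antisymm hΘΨ ((Subgroup.closure_le _).2 ?_))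
    have hz1 : π1 z * π1 z = 1 := congrArg Subtype.val hz2
    have hzq : ∀ q ∈ Q, π1 q * π1 z = π1 z * π1 q := fun q hq =>
      congrArg Subtype.val (Subgroup.mem_center_iff.1 hzc ⟨π1 q, q, hq, rfl⟩)
    have hW1 : ∀ f ∈ Ψ, π1 f * π1 f = 1 ∧ ∀ q ∈ Q, π1 q * π1 f = π1 f * π1 q := fun f hf => by
      refine ⟨?_, fun q hq => ?_⟩
      · rw [← map_mul]
        exact (QuotientGroup.eq_one_iff _).2 (Subgroup.subset_closure (Or.inl ⟨f, hf, rfl⟩))
      · rw [← commutatorElement_eq_one_iff_mul_comm, ← map_commutatorElement]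
        exact (QuotientGroup.eq_one_iff _).2 (Subgroup.subset_closure (Or.inr ⟨q, hq, f, hf, rfl⟩))
    have hΦ1' : ∀ f ∈ Φ, π1 f * π1 f = 1 ∧ ∀ q ∈ Q, π1 q * π1 f = π1 f * π1 q := by
      intro f hf
      rcases hmem f hf with h | h
      · exact hW1 f h
      · obtain ⟨h1, h2⟩ := hW1 _ h
        have e : π1 f = π1 z * π1 (z⁻¹ * f) := by rw [← map_mul, mul_inv_cancel_left]
        rw [e]
        refine ⟨?_, fun q hq => ?_⟩
        · rw [mul_assoc, ← mul_assoc (π1 (z⁻¹ * f)), ← h2 z (hΦQ hzΦ), mul_assoc (π1 z) (π1 (z⁻¹ * f)),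
            h1, mul_one, hz1]
        · rw [← mul_assoc, hzq q hq, mul_assoc, h2 q hq, mul_assoc]
    rintro x (⟨f, hf, rfl⟩ | ⟨q, hq, f, hf, rfl⟩) <;> refine (QuotientGroup.eq_one_iff _).1 ?_
    · show π1 (f * f) = 1
      rw [map_mul]; exact (hΦ1' f hf).1
    · show π1 ⁅q, f⁆ = 1
      rw [map_commutatorElement, commutatorElement_eq_one_iff_mul_comm]; exact (hΦ1' f hf).2 q hq
  have hΦcard : Nat.card Φ = 2 := by
    have h1 : Nat.card (Φ.map π0) = Nat.card Φ := by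
      rw [hcardF, ← Subgroup.index_eq_card]
      show Ψ.relIndex Φ = _
      rw [hΨ1, Subgroup.relIndex_bot_left]
    rw [h1] at hF2'
    have h2 : Nat.card Φ ≠ 1 := fun h => hΦ1 (Subgroup.card_eq_one.1 h)
    have h3 : 0 < Nat.card Φ := Nat.card_pos
    omega
  have L0 : Layer (Φ.subgroupOf Q) (MulAut.conjNormal r : MulAut Q) :=
    { pgroup := hQ
      index := hidx
      five := by rw [← map_pow, hr5, map_one]
      stable := fun x hx => by
        show ((MulAut.conjNormal r x : Q) : X) ∈ Φ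
        rw [MulAut.conjNormal_apply]; exact hΦn.conj_mem _ hx r
      fpf := fun x hx => by
        have hx' : (x : X)⁻¹ * ((MulAut.conjNormal r x : Q) : X) ∈ Φ := hx
        rw [MulAut.conjNormal_apply] at hx'
        exact hfpfV x x.2 hx' }
  exact minus_type L0 (fun x hx => Subgroup.mem_center_iff.2 fun y => Subtype.ext (by
      show (y : X) * x = x * y
      rw [← commutatorElement_eq_one_iff_mul_comm, ← Subgroup.mem_bot, ← hΨ1]
      exact Subgroup.subset_closure (Or.inr ⟨y, y.2, x, hx, rfl⟩)))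
    ((Nat.card_congr (Subgroup.subgroupOfEquivOfLe hΦQ).toEquiv).trans hΦcard)
    (fun x => hsqΦ x x.2)
    (by
      by_contra hno
      push Not at hno
      refine hΦ1 (eq_bot_iff.2 ((Subgroup.closure_le _).2 ?_))
      rintro x ⟨q, hq, rfl⟩
      exact Subgroup.mem_bot.2 (congrArg Subtype.val (hno ⟨q, hq⟩)))

end Cfsg.Agent.TwoAut.OrderFive
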