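import Mathlib

/-!
# Involutory automorphisms of `2^4` with a large centralizer
-/

set_option autoImplicit false
set_option linter.all false

namespace Cfsg.Agent.TwoAut.RankFive

universe u

variable {V : Type u} [CommGroup V]

/-- The fixed subgroup of an automorphism. -/
def fixW (g : MulAut V) : Subgroup V := g.toMonoidHom.eqLocus (MonoidHom.id V)

theorem mem_fixW {g : MulAut V} {w : V} : w ∈ fixW g ↔ g w = w := Iff.rfl

/-- The displacement map. -/
def disp (g : MulAut V) : V →* V :=
  MonoidHom.mk' (fun w => w⁻¹ * g w) (fun a b => by rw [map_mul, mul_inv, mul_mul_mul_comm])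

theorem disp_apply (g : MulAut V) (w : V) : disp g w = w⁻¹ * g w := rfl

theorem ker_disp (g : MulAut V) : (disp g).ker = fixW g := by
  ext w
  rw [MonoidHom.mem_ker, disp_apply, inv_mul_eq_one, mem_fixW, eq_comm]

theorem inv_eq_self_of (h2 : ∀ v : V, v * v = 1) (v : V) : v⁻¹ = v :=
  inv_eq_of_mul_eq_one_right (h2 v)

theorem apply_disp (h2 : ∀ v : V, v * v = 1) {g : MulAut V} (hg : ∀ w, g (g w) = w) (w : V) :
    g (disp g w) = disp g w := by
  rw [disp_apply, map_mul, map_inv, hg, inv_eq_self_of h2, inv_eq_self_of h2, mul_comm]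

/-- A large centralizer forces a transvection. -/
theorem transvection [Finite V] (h2 : ∀ v : V, v * v = 1) (h16 : Nat.card V = 16) (g : MulAut V)
    (hg : ∀ w, g (g w) = w) (hg1 : g ≠ 1)
    (hC : 96 < Nat.card (Subgroup.centralizer ({g} : Set (MulAut V)))) :
    Nat.card (fixW g) = 8 ∧ ∃ c, c ≠ 1 ∧ g c = c ∧ ∀ w, g w = w ∨ g w = w * c := by
  classical
  have hle : (disp g).range ≤ fixW g := by
    rintro _ ⟨w, rfl⟩
    exact apply_disp h2 hg w
  have hmul : Nat.card (fixW g) * Nat.card (disp g).range = 16 := by
    rw [← Subgroup.index_ker, ker_disp, Subgroup.card_mul_index, h16]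
  have hk := Subgroup.card_le_of_le hle
  have hr1 : Nat.card (disp g).range ≠ 1 := by
    intro h1
    refine hg1 (MulEquiv.ext fun w => ?_)
    have : disp g w ∈ (disp g).range := ⟨w, rfl⟩
    rw [Subgroup.eq_bot_of_card_eq _ h1, Subgroup.mem_bot, disp_apply, inv_mul_eq_one] at this
    exact this.symm
  have hcases : Nat.card (disp g).range = 2 ∨ Nat.card (disp g).range = 4 := by
    have hd : Nat.card (disp g).range ∣ 16 := Dvd.intro_left _ hmul
    have := Nat.le_of_dvd (by norm_num) hd
    generalize Nat.card (disp g).range = r at *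
    generalize Nat.card (fixW g) = s at *
    interval_cases r <;> omega
  rcases hcases with h | h <;> rw [h] at hmul
  · refine ⟨by omega, ?_⟩
    obtain ⟨⟨c, hc⟩, hne, huniq⟩ := (Nat.card_eq_two_iff' (1 : (disp g).range)).1 h
    refine ⟨c, fun h' => hne (Subtype.ext h'), hle hc, fun w => ?_⟩
    by_cases hw : disp g w = 1
    · left
      rw [disp_apply, inv_mul_eq_one] at hw
      exact hw.symm
    · right
      have h' : disp g w = c := congrArg Subtype.val
        (huniq ⟨disp g w, w, rfl⟩ (fun e => hw (congrArg Subtype.val e)))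
      rw [← h', disp_apply, mul_inv_cancel_left]
  · exfalso
    have hH : Nat.card (fixW g) = 4 := by omega
    set H := fixW g with hHdef
    -- two coset representatives
    obtain ⟨w1, hw1⟩ : ∃ w, w ∉ H := by
      by_contra hcon
      push Not at hcon
      rw [(Subgroup.eq_top_iff' H).2 hcon, Subgroup.card_top, h16] at hH
      omega
    obtain ⟨w2, hw2, hw2'⟩ : ∃ w, w ∉ H ∧ w * w1 ∉ H := by
      by_contra hcon
      push Not at hcon
      have hsub : (Set.univ : Set V) ⊆ (H : Set V) ∪ (fun w => w * w1) '' (H : Set V) := by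
        intro w _
        by_cases hw : w ∈ H
        · exact Or.inl hw
        · exact Or.inr ⟨w * w1, hcon w hw, show w * w1 * w1 = w by rw [mul_assoc, h2, mul_one]⟩
      have := (Set.ncard_le_ncard hsub).trans (Set.ncard_union_le _ _)
      rw [Set.ncard_univ, h16] at this
      have h3 := Set.ncard_image_le (f := fun w => w * w1) (s := (H : Set V))
      have h4 : (H : Set V).ncard = 4 := by rw [← Nat.card_coe_set_eq]; exact hH
      omega
    let C := Subgroup.centralizer ({g} : Set (MulAut V))
    have hcomm : ∀ (k : C) w, g ((k : MulAut V) w) = (k : MulAut V) (g w) := fun k w =>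
      DFunLike.congr_fun (Subgroup.mem_centralizer_singleton_iff.1 k.2).symm w
    have hinv : ∀ (k : C) (w : V), ((k : MulAut V) w ∈ H ∧ (k : MulAut V) w ≠ 1) ↔ (w ∈ H ∧ w ≠ 1) := by
      intro k w
      rw [hHdef, mem_fixW, mem_fixW, hcomm]
      simp
    let r : C →* Equiv.Perm {w : V // w ∈ H ∧ w ≠ 1} := MonoidHom.mk'
      (fun k => (k : MulAut V).toEquiv.subtypeEquiv (fun w => (hinv k w).symm))
      (fun k l => Equiv.ext fun w => Subtype.ext rfl)
    have hrange : Nat.card r.range ≤ 6 := by
      refine (Nat.card_le_card_of_injective _ Subtype.val_injective).trans ?_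
      rw [Nat.card_perm]
      have h3 : Nat.card {w : V // w ∈ H ∧ w ≠ 1} ≤ 3 := by
        have hs : {w : V | w ∈ H ∧ w ≠ 1} = (H : Set V) \ {1} := rfl
        have := Set.ncard_diff_singleton_of_mem (s := (H : Set V)) (a := 1) H.one_mem
        rw [← hs, ← Nat.card_coe_set_eq, ← Nat.card_coe_set_eq] at this
        have h4 : Nat.card (H : Set V) = 4 := hH
        rw [h4] at this
        exact this.le
      exact (Nat.factorial_le h3).trans_eq rfl
    have hker : Nat.card r.ker ≤ 16 := by
      have hfixH : ∀ k : r.ker, ∀ w ∈ H, ((k : C) : MulAut V) w = w := by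
        intro k w hw
        by_cases h1 : w = 1
        · rw [h1, map_one]
        · exact congrArg Subtype.val (DFunLike.congr_fun k.2 (⟨w, hw, h1⟩ : {w : V // w ∈ H ∧ w ≠ 1}))
      have hmem : ∀ (k : r.ker) w, disp ((k : C) : MulAut V) w ∈ H := by
        intro k w
        refine mem_fixW.2 ?_
        have h1 : g ((((k : C) : MulAut V)) w) = ((k : C) : MulAut V) (g w) := hcomm _ w
        have h3 : ((k : C) : MulAut V) (disp g w) = disp g w := hfixH k _ (hle ⟨w, rfl⟩)
        rw [disp_apply, map_mul, map_inv] at h3
        rw [disp_apply, map_mul, map_inv, h1]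
        have h4 : ((k : C) : MulAut V) (g w) = ((k : C) : MulAut V) w * (w⁻¹ * g w) := by
          rw [← h3, mul_inv_cancel_left]
        rw [h4, inv_eq_self_of h2, inv_eq_self_of h2]
        calc g w * (((k : C) : MulAut V) w * (w * g w))
            = (w * ((k : C) : MulAut V) w) * (g w * g w) := by
              simp only [mul_assoc, mul_comm, mul_left_comm]
          _ = w * ((k : C) : MulAut V) w := by rw [h2, mul_one]
      refine (Nat.card_le_card_of_injective
        (fun k => ((⟨_, hmem k w1⟩, ⟨_, hmem k w2⟩) : H × H)) ?_).trans_eq ?_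
      · intro k l hkl
        simp only [Prod.mk.injEq, Subtype.mk.injEq, disp_apply, mul_right_inj] at hkl
        apply Subtype.ext
        apply Subtype.ext
        have htop : ((k : C) : MulAut V).toMonoidHom.eqLocus ((l : C) : MulAut V).toMonoidHom = ⊤ := by
          set E := ((k : C) : MulAut V).toMonoidHom.eqLocus ((l : C) : MulAut V).toMonoidHom with hE
          have hHE : H ≤ E := fun w hw => (hfixH k w hw).trans (hfixH l w hw).symm
          have h1E : w1 ∈ E := hkl.1
          have h2E : w2 ∈ E := hkl.2
          have hsub : insert w2 ((H : Set V) ∪ (fun w => w * w1) '' (H : Set V)) ⊆ (E : Set V) := by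
            rintro w (rfl | hw | ⟨y, hy, rfl⟩)
            · exact h2E
            · exact hHE hw
            · exact E.mul_mem (hHE hy) h1E
          have hn : w2 ∉ (H : Set V) ∪ (fun w => w * w1) '' (H : Set V) := by
            rintro (hw | ⟨y, hy, h⟩)
            · exact hw2 hw
            · refine hw2' ?_
              rw [← h]
              show y * w1 * w1 ∈ H
              rw [mul_assoc, h2, mul_one]
              exact hy
          have hd : Disjoint (H : Set V) ((fun w => w * w1) '' (H : Set V)) := by
            rw [Set.disjoint_left]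
            rintro _ hw ⟨y, hy, rfl⟩
            exact hw1 ((H.mul_mem_cancel_left hy).1 hw)
          have := Set.ncard_le_ncard hsub
          rw [Set.ncard_insert_of_notMem hn, Set.ncard_union_eq hd,
            Set.ncard_image_of_injective _ (mul_left_injective w1)] at this
          have h4 : (H : Set V).ncard = 4 := by rw [← Nat.card_coe_set_eq]; exact hH
          have h5 : (E : Set V).ncard = Nat.card E := by rw [← Nat.card_coe_set_eq]; rfl
          rw [h4, h5] at this
          refine Subgroup.eq_top_of_card_eq _ ?_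
          have hd16 : Nat.card E ∣ 16 := h16 ▸ Subgroup.card_subgroup_dvd_card E
          have := Nat.le_of_dvd (by norm_num) hd16
          rw [h16]
          generalize Nat.card E = m at *
          interval_cases m <;> omega
        refine MulEquiv.ext fun w => ?_
        exact (htop ▸ Subgroup.mem_top w :
          w ∈ ((k : C) : MulAut V).toMonoidHom.eqLocus ((l : C) : MulAut V).toMonoidHom)
      · rw [Nat.card_prod, hH]
    change 96 < Nat.card C at hC
    have := r.ker.card_mul_index
    rw [Subgroup.index_ker] at this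
    have hle' : Nat.card r.ker * Nat.card r.range ≤ 16 * 6 := Nat.mul_le_mul hker hrange
    omega

/-- Two transvections fixing each other's centres commute. -/
theorem commute_of_fix {g g' : MulAut V} {c c' : V} (hg : ∀ w, g w = w ∨ g w = w * c)
    (hg' : ∀ w, g' w = w ∨ g' w = w * c') (h1 : g c' = c') (h2 : g' c = c) : g * g' = g' * g := by
  refine MulEquiv.ext fun w => ?_
  show g (g' w) = g' (g w)
  rcases hg w with a | a <;> rcases hg' w with b | b <;>
    simp only [a, b, map_mul, h1, h2, mul_assoc, mul_comm c c']

/-- An element of order three fixing a subgroup of index two pointwise. -/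
theorem fix_step [Finite V] (h2 : ∀ v : V, v * v = 1) (x : MulAut V) (hx : ∀ w, x (x (x w)) = w)
    (A B : Subgroup V) (hAB : A ≤ B) (hcard : Nat.card B ≤ 2 * Nat.card A)
    (hA : ∀ a ∈ A, x a = a) (hB : ∀ b ∈ B, x b ∈ B) : ∀ b ∈ B, x b = b := by
  intro b hb
  by_cases hbA : b ∈ A
  · exact hA b hbA
  have hidx : (A.subgroupOf B).index = 2 := by
    have h1 := (A.subgroupOf B).card_mul_index
    rw [Nat.card_congr (Subgroup.subgroupOfEquivOfLe hAB).toEquiv] at h1
    have hpos : 0 < Nat.card A := Nat.card_pos
    have hne : (A.subgroupOf B).index ≠ 1 := fun h => hbA (by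
      rw [Subgroup.index_eq_one, Subgroup.subgroupOf_eq_top] at h
      exact h hb)
    have hle : (A.subgroupOf B).index ≤ 2 := by
      by_contra hcon
      have : Nat.card A * 3 ≤ Nat.card A * (A.subgroupOf B).index := Nat.mul_le_mul_left _ (by omega)
      omega
    have hnz : (A.subgroupOf B).index ≠ 0 := Subgroup.index_ne_zero_of_finite
    omega
  have hxb : x b ∉ A := fun h => hbA (by
    have := x.injective (hA _ h)
    rwa [this] at h)
  have hmem : (⟨b, hb⟩ * ⟨x b, hB b hb⟩ : B) ∈ A.subgroupOf B :=
    (Subgroup.mul_mem_iff_of_index_two hidx).2 ⟨fun h => absurd h hbA, fun h => absurd h hxb⟩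
  have ha : b * x b ∈ A := hmem
  have hb' : x b = b * (b * x b) := by rw [← mul_assoc, h2, one_mul]
  have h4 : x (x b) = b := by
    calc x (x b) = x (b * (b * x b)) := by rw [← hb']
      _ = x b * (b * x b) := by rw [map_mul, hA _ ha]
      _ = b := by rw [mul_left_comm, h2, mul_one]
  have h3 := hx b
  rwa [h4] at h3

/-- An element of order three centralising a transvection fixes only its centre in the axis. -/
theorem fix_axis [Finite V] (h2 : ∀ v : V, v * v = 1) (h16 : Nat.card V = 16) {g x : MulAut V}
    {c : V} (hfix : Nat.card (fixW g) = 8) (hc : c ≠ 1) (hgc : g c = c)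
    (hg : ∀ w, g w = w ∨ g w = w * c) (hx : ∀ w, x (x (x w)) = w) (hx1 : x ≠ 1)
    (hcomm : ∀ w, g (x w) = x (g w)) {v : V} (hv : g v = v) (hxv : x v = v) : v = 1 ∨ v = c := by
  classical
  have hxc : x c = c := by
    obtain ⟨w0, hw0⟩ : ∃ w, g w ≠ w := by
      by_contra hcon
      push Not at hcon
      rw [(Subgroup.eq_top_iff' (fixW g)).2 hcon, Subgroup.card_top, h16] at hfix
      omega
    have h1 := hcomm w0
    rw [(hg w0).resolve_left hw0, map_mul] at h1
    rcases hg (x w0) with h | h
    · rw [h] at h1
      exact absurd (x.injective ((mul_eq_left.1 h1.symm).trans (map_one x).symm)) hc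
    · rw [h] at h1
      exact (mul_left_cancel h1).symm
  by_contra hcon
  rw [not_or] at hcon
  let A := fixW g ⊓ fixW x
  have hA4 : 4 ≤ Nat.card A := by
    have hd : Nat.card A ∣ 16 := h16 ▸ Subgroup.card_subgroup_dvd_card A
    have h3 : ({1, c, v} : Finset V).card = 3 :=
      Finset.card_eq_three.2 ⟨1, c, v, hc.symm, Ne.symm hcon.1, Ne.symm hcon.2, rfl⟩
    have hsub : ((({1, c, v} : Finset V) : Set V)) ⊆ (A : Set V) := by
      intro w hw
      simp only [Finset.coe_insert, Finset.coe_singleton, Set.mem_insert_iff, Set.mem_singleton_iff] at hw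
      rcases hw with rfl | rfl | rfl
      · exact A.one_mem
      · exact ⟨hgc, hxc⟩
      · exact ⟨hv, hxv⟩
    have := Set.ncard_le_ncard hsub
    rw [Set.ncard_coe_finset, h3, ← Nat.card_coe_set_eq] at this
    have h5 : 3 ≤ Nat.card A := this
    have := Nat.le_of_dvd (by norm_num) hd
    generalize Nat.card A = m at *
    interval_cases m <;> omega
  have hH : ∀ b ∈ fixW g, x b = b :=
    fix_step h2 x hx A (fixW g) inf_le_left (by omega) (fun a ha => ha.2)
      (fun b hb => by rw [mem_fixW] at hb ⊢; rw [hcomm, hb])
  have htop := fix_step h2 x hx (fixW g) ⊤ le_top (by rw [Subgroup.card_top, h16, hfix]) hH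
    (fun b _ => Subgroup.mem_top _)
  exact hx1 (MulEquiv.ext fun w => htop w (Subgroup.mem_top w))

end Cfsg.Agent.TwoAut.RankFive
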