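import Cfsg.Prelude.Def_CaseTheorems
import Cfsg.Agent.TwoAut.RankFiveTransv
import Mathlib

/-!
# Sectional 2-rank five in `2^4.S₆`
-/

set_option autoImplicit false
set_option linter.all false
set_option maxHeartbeats 800000

namespace Cfsg.Agent.TwoAut.RankFive

open Equiv

universe u

/-- Three commuting triple transpositions. -/
def tt1 : Perm (Fin 6) := swap 0 1 * swap 2 3 * swap 4 5
/-- Three commuting triple transpositions. -/
def tt2 : Perm (Fin 6) := swap 0 1 * swap 2 4 * swap 3 5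
/-- Three commuting triple transpositions. -/
def tt3 : Perm (Fin 6) := swap 0 1 * swap 2 5 * swap 3 4
/-- Elements of order three. -/
def xx1 : Perm (Fin 6) := swap 0 2 * swap 2 4 * (swap 1 3 * swap 3 5)
/-- Elements of order three. -/
def xx2 : Perm (Fin 6) := swap 0 2 * swap 2 3 * (swap 1 4 * swap 4 5)
/-- Elements of order three. -/
def xx3 : Perm (Fin 6) := swap 0 2 * swap 2 3 * (swap 1 5 * swap 5 4)

theorem distinct_products : ∀ p r : Fin 2 × Fin 2 × Fin 2,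
    tt1 ^ (p.1 : ℕ) * (tt2 ^ (p.2.1 : ℕ) * tt3 ^ (p.2.2 : ℕ)) =
      tt1 ^ (r.1 : ℕ) * (tt2 ^ (r.2.1 : ℕ) * tt3 ^ (r.2.2 : ℕ)) → p = r := by decide +kernel

/-- The image of a fixed-point-free involution has a large centralizer. -/
theorem large_centralizer {M : Type u} [Group M] [Finite M] (e : alternatingGroup (Fin 8) ≃* M)
    (u : alternatingGroup (Fin 8)) (hu : u * u = 1) (hfree : ∀ x, (u : Perm (Fin 8)) x ≠ x) :
    96 < Nat.card (Subgroup.centralizer ({e u} : Set M)) := by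
  classical
  haveI : Fact (Nat.Prime 2) := ⟨Nat.prime_two⟩
  set σ : Perm (Fin 8) := (u : Perm (Fin 8)) with hσdef
  have hσ2 : σ * σ = 1 := congrArg Subtype.val hu
  have hne : σ ≠ 1 := fun h => hfree 0 (by rw [h]; rfl)
  have ho : orderOf σ = 2 := orderOf_eq_prime (by rw [sq]; exact hσ2) hne
  obtain ⟨j, hj⟩ := Perm.cycleType_prime_order (σ := σ) (by rw [ho]; exact Nat.prime_two)
  rw [ho] at hj
  have hsupp : σ.support.card = 8 := by
    rw [Finset.eq_univ_iff_forall.2 (fun x => Perm.mem_support.2 (hfree x)), Finset.card_univ,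
      Fintype.card_fin]
  have hsum := σ.sum_cycleType
  rw [hj, Multiset.sum_replicate, hsupp, smul_eq_mul] at hsum
  have hj3 : j + 1 = 4 := by omega
  rw [hj3] at hj
  have hC : Nat.card (Subgroup.centralizer ({σ} : Set (Perm (Fin 8)))) = 384 := by
    rw [Perm.nat_card_centralizer, hj]
    simp [Multiset.sum_replicate, Multiset.prod_replicate, Multiset.toFinset_replicate, Nat.factorial]
  let C := Subgroup.centralizer ({σ} : Set (Perm (Fin 8)))
  let s : C →* ℤˣ := Perm.sign.comp C.subtype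
  have h1 := s.ker.card_mul_index
  have h2 : s.ker.index ≤ 2 := by
    rw [Subgroup.index_ker]
    refine (Nat.card_le_card_of_injective _ Subtype.val_injective).trans_eq ?_
    rw [Nat.card_eq_fintype_card, Fintype.card_units_int]
  have h3 : Nat.card s.ker ≤ Nat.card (Subgroup.centralizer ({e u} : Set M)) := by
    refine Nat.card_le_card_of_injective
      (fun k => ⟨e ⟨(k : C).1, Perm.mem_alternatingGroup.2 k.2⟩, ?_⟩) ?_
    · rw [Subgroup.mem_centralizer_singleton_iff, ← map_mul, ← map_mul]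
      congr 1
      apply Subtype.ext
      exact Subgroup.mem_centralizer_singleton_iff.1 (k : C).2
    · intro k l h
      have := e.injective (congrArg Subtype.val h)
      exact Subtype.ext (Subtype.ext (congrArg Subtype.val this :))
  change Nat.card C = 384 at hC
  rw [hC] at h1
  have h5 : 192 ≤ Nat.card s.ker := by
    by_contra hcon
    have : Nat.card s.ker * s.ker.index ≤ 191 * 2 := Nat.mul_le_mul (by omega) h2
    omega
  omega

/-- The centres and axes of three commuting transvections. -/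
theorem geometry {V : Type u} [CommGroup V] [Finite V] (h2 : ∀ v : V, v * v = 1)
    (hcard : Nat.card V = 16) (ρ : Perm (Fin 6) →* MulAut V) (hρ : Function.Injective ρ)
    (c1 c2 c3 : V) (hH1 : Nat.card (fixW (ρ tt1)) = 8) (hH2 : Nat.card (fixW (ρ tt2)) = 8)
    (hH3 : Nat.card (fixW (ρ tt3)) = 8) (hc1 : c1 ≠ 1) (hc2 : c2 ≠ 1) (hc3 : c3 ≠ 1)
    (hf1 : ρ tt1 c1 = c1) (hf2 : ρ tt2 c2 = c2) (hf3 : ρ tt3 c3 = c3)
    (hw1 : ∀ w, ρ tt1 w = w ∨ ρ tt1 w = w * c1) (hw2 : ∀ w, ρ tt2 w = w ∨ ρ tt2 w = w * c2)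
    (hw3 : ∀ w, ρ tt3 w = w ∨ ρ tt3 w = w * c3) :
    (ρ tt2 c1 = c1 ∧ ρ tt3 c1 = c1 ∧ ρ tt1 c2 = c2 ∧ ρ tt3 c2 = c2 ∧ ρ tt1 c3 = c3 ∧
      ρ tt2 c3 = c3) ∧
      Nat.card (fixW (ρ tt1) ⊓ fixW (ρ tt2) : Subgroup V) = 4 ∧
      (∀ v ∈ fixW (ρ tt1) ⊓ fixW (ρ tt2), ρ tt3 v = v) ∧
      (∀ v, ρ tt1 v = v → ρ tt3 v = v → v ∈ fixW (ρ tt1) ⊓ fixW (ρ tt2)) ∧
      (∀ v, ρ tt2 v = v → ρ tt3 v = v → v ∈ fixW (ρ tt1) ⊓ fixW (ρ tt2)) := by
  classical
  have hinvol : ∀ T : Perm (Fin 6), T * T = 1 → ∀ w, ρ T (ρ T w) = w := fun T hT w => by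
    rw [← MulAut.mul_apply, ← map_mul, hT, map_one]; rfl
  -- the centres are fixed by all three
  have hfix : ∀ T T', T * T' = T' * T → ∀ c c', (∀ w, ρ T w = w ∨ ρ T w = w * c) →
      (∀ w, ρ T' w = w ∨ ρ T' w = w * c') → Nat.card (fixW (ρ T)) = 8 → ρ T' c = c := by
    intro T T' hTT c c' hw hw' hH
    obtain ⟨w0, hw0⟩ : ∃ w, ρ T w ≠ w := by
      by_contra hcon
      push Not at hcon
      rw [(Subgroup.eq_top_iff' (fixW (ρ T))).2 hcon, Subgroup.card_top, hcard] at hH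
      omega
    have hcomm : ρ T (ρ T' w0) = ρ T' (ρ T w0) := by
      rw [← MulAut.mul_apply, ← MulAut.mul_apply, ← map_mul, ← map_mul, hTT]
    rw [(hw w0).resolve_left hw0, map_mul] at hcomm
    rcases hw (ρ T' w0) with h | h
    · rw [h] at hcomm
      have h1 := (mul_eq_left.1 hcomm.symm).trans (map_one (ρ T')).symm
      exact absurd ((hw w0).resolve_left hw0 |>.trans (by rw [(ρ T').injective h1, mul_one])) hw0
    · rw [h] at hcomm
      exact (mul_left_cancel hcomm).symm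
  have f12 : ρ tt2 c1 = c1 := hfix tt1 tt2 (by decide +kernel) c1 c2 hw1 hw2 hH1
  have f13 : ρ tt3 c1 = c1 := hfix tt1 tt3 (by decide +kernel) c1 c3 hw1 hw3 hH1
  have f21 : ρ tt1 c2 = c2 := hfix tt2 tt1 (by decide +kernel) c2 c1 hw2 hw1 hH2
  have f23 : ρ tt3 c2 = c2 := hfix tt2 tt3 (by decide +kernel) c2 c3 hw2 hw3 hH2
  have f31 : ρ tt1 c3 = c3 := hfix tt3 tt1 (by decide +kernel) c3 c1 hw3 hw1 hH3
  have f32 : ρ tt2 c3 = c3 := hfix tt3 tt2 (by decide +kernel) c3 c2 hw3 hw2 hH3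
  -- transport along conjugation
  have hmove : ∀ σ T T', σ * T * σ⁻¹ = T' → ∀ v, ρ T v = v → ρ T' (ρ σ v) = ρ σ v := by
    intro σ T T' h v hv
    have h' : T' * σ = σ * T := by rw [← h, inv_mul_cancel_right]
    rw [← MulAut.mul_apply, ← map_mul, h', map_mul, MulAut.mul_apply, hv]
  have hcentre : ∀ σ T T', σ * T * σ⁻¹ = T' → ∀ c c', (∀ w, ρ T w = w ∨ ρ T w = w * c) →
      (∀ w, ρ T' w = w ∨ ρ T' w = w * c') → Nat.card (fixW (ρ T)) = 8 → ρ σ c = c' := by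
    intro σ T T' h c c' hw hw' hH
    obtain ⟨w0, hw0⟩ : ∃ w, ρ T w ≠ w := by
      by_contra hcon
      push Not at hcon
      rw [(Subgroup.eq_top_iff' (fixW (ρ T))).2 hcon, Subgroup.card_top, hcard] at hH
      omega
    have h' : T' * σ = σ * T := by rw [← h, inv_mul_cancel_right]
    have hk : ρ T' (ρ σ w0) = ρ σ w0 * ρ σ c := by
      rw [← MulAut.mul_apply, ← map_mul, h', map_mul, MulAut.mul_apply, (hw w0).resolve_left hw0,
        map_mul]
    rcases hw' (ρ σ w0) with h'' | h''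
    · rw [h''] at hk
      have h1 := (mul_eq_left.1 hk.symm).trans (map_one (ρ σ)).symm
      exact absurd ((hw w0).resolve_left hw0 |>.trans (by rw [(ρ σ).injective h1, mul_one])) hw0
    · rw [h''] at hk
      exact (mul_left_cancel hk).symm
  -- the two transvections `tt2`, `τ tt2 τ⁻¹` do not commute
  have hnc : ¬ (∀ v, ρ tt1 v = v → ρ tt2 v = v) ∧ c1 ≠ c2 := by
    obtain ⟨τ, t', ht', hτ1, hτ1', hnc'⟩ : ∃ τ t' : Perm (Fin 6), τ * tt2 * τ⁻¹ = t' ∧
        τ * tt1 * τ⁻¹ = tt1 ∧ τ⁻¹ * tt1 * τ⁻¹⁻¹ = tt1 ∧ tt2 * t' ≠ t' * tt2 :=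
      ⟨swap 0 2 * swap 1 3, _, rfl, by decide +kernel, by decide +kernel, by decide +kernel⟩
    have hw' : ∀ w, ρ t' w = w ∨ ρ t' w = w * ρ τ c2 := by
      intro w
      obtain ⟨v, rfl⟩ := (ρ τ).surjective w
      have h' : t' * τ = τ * tt2 := by rw [← ht', inv_mul_cancel_right]
      rw [← MulAut.mul_apply, ← map_mul, h', map_mul, MulAut.mul_apply]
      rcases hw2 v with h | h <;> rw [h]
      · exact Or.inl rfl
      · exact Or.inr (map_mul _ _ _)
    constructor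
    · intro hH
      refine hnc' (hρ ?_)
      rw [map_mul, map_mul]
      have h12 : fixW (ρ tt1) = fixW (ρ tt2) :=
        Subgroup.eq_of_le_of_card_ge (fun v hv => hH v hv) (by rw [hH1, hH2])
      have hiff : ∀ v, ρ tt2 v = v → ρ tt1 v = v := fun v hv => by
        have : v ∈ fixW (ρ tt1) := h12 ▸ hv
        exact this
      refine commute_of_fix hw2 hw' ?_ ?_
      · exact hH _ (hmove τ tt1 tt1 hτ1 c2 f21)
      · obtain ⟨v, hv⟩ := (ρ τ).surjective c2
        have h1 : ρ tt1 v = v := by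
          have h := hmove τ⁻¹ tt1 tt1 hτ1' c2 f21
          have hv' : ρ τ⁻¹ c2 = v := by
            rw [← hv, ← MulAut.mul_apply, ← map_mul, inv_mul_cancel, map_one]; rfl
          rwa [hv'] at h
        rw [← hv]
        exact hmove τ tt2 t' ht' v (hH v h1)
    · intro hcc
      refine hnc' (hρ ?_)
      rw [map_mul, map_mul]
      have hfixc : ρ τ c2 = c2 := by
        rw [← hcc]
        exact hcentre τ tt1 tt1 hτ1 c1 c1 hw1 hw1 hH1
      refine commute_of_fix hw2 hw' (by rw [hfixc, hf2]) ?_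
      rw [← hfixc]
      exact hmove τ tt2 t' ht' c2 hf2
  obtain ⟨hncH, hncc⟩ := hnc
  -- the subgroup `U`
  let U : Subgroup V := fixW (ρ tt1) ⊓ fixW (ρ tt2)
  let U' : Subgroup V := fixW (ρ tt1) ⊓ fixW (ρ tt3)
  obtain ⟨σ, hσ1, hσ2, hσ3, hσσ⟩ : ∃ σ : Perm (Fin 6), σ * tt1 * σ⁻¹ = tt1 ∧
      σ * tt2 * σ⁻¹ = tt3 ∧ σ * tt3 * σ⁻¹ = tt2 ∧ σ * σ = 1 :=
    ⟨swap 2 3, by decide +kernel, by decide +kernel, by decide +kernel, by decide +kernel⟩
  have hσc : ρ σ c2 = c3 := hcentre σ tt2 tt3 hσ2 c2 c3 hw2 hw3 hH2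
  have hσc1 : ρ σ c1 = c1 := hcentre σ tt1 tt1 hσ1 c1 c1 hw1 hw1 hH1
  have hcard4 : ∀ (K : Subgroup V) (a b : V), a ∈ K → b ∈ K → a ≠ 1 → b ≠ 1 → a ≠ b →
      Nat.card K < 8 → Nat.card K = 4 := by
    intro K a b ha hb ha1 hb1 hab hlt
    have hd : Nat.card K ∣ 16 := hcard ▸ Subgroup.card_subgroup_dvd_card K
    have h3 : ({1, a, b} : Finset V).card = 3 :=
      Finset.card_eq_three.2 ⟨1, a, b, ha1.symm, hb1.symm, hab, rfl⟩
    have hsub : ((({1, a, b} : Finset V) : Set V)) ⊆ (K : Set V) := by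
      intro w hw
      simp only [Finset.coe_insert, Finset.coe_singleton, Set.mem_insert_iff, Set.mem_singleton_iff] at hw
      rcases hw with rfl | rfl | rfl
      · exact K.one_mem
      · exact ha
      · exact hb
    have := Set.ncard_le_ncard hsub
    rw [Set.ncard_coe_finset, h3, ← Nat.card_coe_set_eq] at this
    have h5 : 3 ≤ Nat.card K := this
    generalize Nat.card K = m at *
    interval_cases m <;> omega
  have hU : Nat.card U = 4 := by
    refine hcard4 U c1 c2 ⟨hf1, f12⟩ ⟨f21, hf2⟩ hc1 hc2 hncc ?_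
    by_contra hcon
    refine hncH fun v hv => ?_
    have h : U = fixW (ρ tt1) := Subgroup.eq_of_le_of_card_ge inf_le_left (by rw [hH1]; omega)
    exact (h.symm.le hv).2
  have hncc3 : c1 ≠ c3 := fun h => hncc ((ρ σ).injective (by rw [hσc1, hσc, h]))
  have hU' : Nat.card U' = 4 := by
    refine hcard4 U' c1 c3 ⟨hf1, f13⟩ ⟨f31, hf3⟩ hc1 hc3 hncc3 ?_
    by_contra hcon
    refine hncH fun v hv => ?_
    have h : U' = fixW (ρ tt1) := Subgroup.eq_of_le_of_card_ge inf_le_left (by rw [hH1]; omega)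
    have hσv : ρ tt1 (ρ σ v) = ρ σ v := hmove σ tt1 tt1 hσ1 v hv
    have h3 : ρ tt3 (ρ σ v) = ρ σ v := (h.symm.le hσv).2
    have h4 := hmove σ tt3 tt2 hσ3 _ h3
    have hss : ρ σ (ρ σ v) = v := hinvol σ hσσ v
    rwa [hss] at h4
  have hUmem : ∀ a b : V, a ∈ U → b ∈ U → a ≠ 1 → b ≠ 1 → a ≠ b → ∀ K : Subgroup V,
      a ∈ K → b ∈ K → U ≤ K := by
    intro a b ha hb ha1 hb1 hab K haK hbK
    have h4 := hcard4 (U ⊓ K) a b ⟨ha, haK⟩ ⟨hb, hbK⟩ ha1 hb1 hab
      (lt_of_le_of_lt (Subgroup.card_le_of_le inf_le_left) (by omega))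
    have h := Subgroup.eq_of_le_of_card_ge (inf_le_left : U ⊓ K ≤ U) (by omega)
    exact h ▸ inf_le_right
  have hU3 : ∀ v ∈ U, ρ tt3 v = v := fun v hv =>
    hUmem c1 c2 ⟨hf1, f12⟩ ⟨f21, hf2⟩ hc1 hc2 hncc (fixW (ρ tt3)) f13 f23 hv
  have hUU : ∀ v, ρ tt1 v = v → ρ tt3 v = v → v ∈ U := fun v h1 h3 => by
    have h := Subgroup.eq_of_le_of_card_ge (show U ≤ U' from fun w hw => ⟨hw.1, hU3 w hw⟩) (by omega)
    exact h.symm ▸ (⟨h1, h3⟩ : v ∈ U')
  have hc3U : c3 ∈ U := ⟨f31, f32⟩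
  have hUU23 : ∀ v, ρ tt2 v = v → ρ tt3 v = v → v ∈ U := by
    intro v h2' h3
    have hle : U ≤ fixW (ρ tt2) ⊓ fixW (ρ tt3) := fun w hw => ⟨hw.2, hU3 w hw⟩
    have h4 : Nat.card (fixW (ρ tt2) ⊓ fixW (ρ tt3) : Subgroup V) ≤ Nat.card U := by
      by_contra hcon
      have hlt : ¬ Nat.card (fixW (ρ tt2) ⊓ fixW (ρ tt3) : Subgroup V) < 8 := fun hlt => hcon
        (le_of_eq ((hcard4 _ c1 c2 (hle ⟨hf1, f12⟩) (hle ⟨f21, hf2⟩) hc1 hc2 hncc hlt).trans hU.symm))
      have h23 := Subgroup.eq_of_le_of_card_ge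
        (inf_le_left : fixW (ρ tt2) ⊓ fixW (ρ tt3) ≤ fixW (ρ tt2)) (by rw [hH2]; omega)
      -- move by a symmetry exchanging `tt1` and `tt3` and fixing `tt2`
      obtain ⟨μ, hμ2, hμ3, hμμ⟩ : ∃ μ : Perm (Fin 6), μ * tt2 * μ⁻¹ = tt2 ∧
          μ * tt3 * μ⁻¹ = tt1 ∧ μ * μ = 1 :=
        ⟨swap 2 4, by decide +kernel, by decide +kernel, by decide +kernel⟩
      refine hncH fun w hw => ?_
      have hall : ∀ w, ρ tt2 w = w → ρ tt1 w = w := by
        intro w hw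
        have h5 : ρ tt2 (ρ μ w) = ρ μ w := hmove μ tt2 tt2 hμ2 w hw
        have h6 : ρ tt3 (ρ μ w) = ρ μ w := ((h23.symm ▸ h5 : ρ μ w ∈ fixW (ρ tt2) ⊓ fixW (ρ tt3))).2
        have h7 := hmove μ tt3 tt1 hμ3 _ h6
        have hss : ρ μ (ρ μ w) = w := hinvol μ hμμ w
        rwa [hss] at h7
      have h12 : fixW (ρ tt2) = fixW (ρ tt1) :=
        Subgroup.eq_of_le_of_card_ge (fun w hw => hall w hw) (by rw [hH1, hH2])
      exact h12.symm.le hw
    have h := Subgroup.eq_of_le_of_card_ge hle h4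
    exact h.symm ▸ (⟨h2', h3⟩ : v ∈ fixW (ρ tt2) ⊓ fixW (ρ tt3))
  exact ⟨⟨f12, f13, f21, f23, f31, f32⟩, hU, hU3, hUU, hUU23⟩

variable {L : Type u} [Group L] [Finite L]

/-- Lifts of a transvection square into its centre. -/
theorem lift_square (V : Subgroup L) [V.Normal] (hV2 : ∀ v ∈ V, v * v = 1)
    (hcm : ∀ a b : V, a * b = b * a) (hcard : Nat.card V = 16)
    (π : L →* Perm (Fin 6)) (hπ : Function.Surjective π) (hker : π.ker = V)
    (ρ : Perm (Fin 6) →* MulAut V) (hρ : Function.Injective ρ)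
    (hconj : ∀ (l : L) (v : V), l * (v : L) * l⁻¹ = (ρ (π l) v : L))
    (T x : Perm (Fin 6)) (c : V) (hH : Nat.card ((ρ T).toMonoidHom.eqLocus (MonoidHom.id V)) = 8)
    (hc : c ≠ 1) (hfc : ρ T c = c)
    (hw : ∀ w, ρ T w = w ∨ ρ T w = w * c) (hTT : T * T = 1) (hx3 : x * (x * x) = 1) (hx1 : x ≠ 1)
    (hTx : T * x = x * T) (h : L) (hh : π h = T) :
    ∃ hm : h * h ∈ V, (⟨h * h, hm⟩ : V) = 1 ∨ (⟨h * h, hm⟩ : V) = c := by
  classical
  letI : CommGroup V := { (inferInstance : Group V) with mul_comm := hcm }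
  have h2 : ∀ v : V, v * v = 1 := fun v => Subtype.ext (hV2 _ v.2)
  have hm : h * h ∈ V := by rw [← hker, MonoidHom.mem_ker, map_mul, hh, hTT]
  refine ⟨hm, ?_⟩
  -- a lift of order three
  obtain ⟨y, hy, hy3⟩ : ∃ y : L, π y = x ∧ y * (y * y) = 1 := by
    obtain ⟨y0, hy0⟩ := hπ x
    have hm0 : y0 ^ 3 ∈ V := by
      rw [← hker, MonoidHom.mem_ker, map_pow, hy0, pow_succ', sq, hx3]
    have h6 := hV2 _ hm0
    rw [← pow_add] at h6
    refine ⟨y0 ^ 4, ?_, ?_⟩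
    · rw [map_pow, hy0, pow_succ, pow_succ', sq, hx3, one_mul]
    · rw [← pow_add, ← pow_add, show 4 + (4 + 4) = 3 + 3 + (3 + 3) from rfl, pow_add, h6, one_mul]
  have hr3 : ∀ w, ρ x (ρ x (ρ x w)) = w := fun w => by
    rw [← MulAut.mul_apply, ← MulAut.mul_apply, ← map_mul, ← map_mul,
      show x * x * x = 1 by rw [mul_assoc, hx3], map_one]; rfl
  -- a lift commuting with it
  have hv : h⁻¹ * y * h * y⁻¹ ∈ V := by
    rw [← hker, MonoidHom.mem_ker, map_mul, map_mul, map_mul, map_inv, map_inv, hh, hy,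
      mul_assoc T⁻¹ x T, ← hTx, inv_mul_cancel_left, mul_inv_cancel]
  let v : V := ⟨h⁻¹ * y * h * y⁻¹, hv⟩
  have hyh : y * h * y⁻¹ = h * v := by
    show _ = h * (h⁻¹ * y * h * y⁻¹)
    group
  have hyv : ∀ w : V, y * (w : L) * y⁻¹ = (ρ x w : L) := fun w => by rw [hconj, hy]
  have hsum : v * ρ x v * ρ x (ρ x v) = 1 := by
    apply Subtype.ext
    have e1 : (y * (y * y)) * h * (y * (y * y))⁻¹ = h * ((v : L) * (ρ x v : L) * (ρ x (ρ x v) : L)) := by
      calc (y * (y * y)) * h * (y * (y * y))⁻¹ = y * (y * (y * h * y⁻¹) * y⁻¹) * y⁻¹ := by group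
        _ = y * (y * (h * v) * y⁻¹) * y⁻¹ := by rw [hyh]
        _ = y * ((y * h * y⁻¹) * (y * v * y⁻¹)) * y⁻¹ := by group
        _ = y * (h * v * (ρ x v : L)) * y⁻¹ := by rw [hyh, hyv]
        _ = (y * h * y⁻¹) * (y * v * y⁻¹) * (y * (ρ x v : L) * y⁻¹) := by group
        _ = h * v * (ρ x v : L) * (ρ x (ρ x v) : L) := by rw [hyh, hyv, hyv]
        _ = _ := by simp only [mul_assoc]
    rw [hy3, one_mul, inv_one, mul_one] at e1
    exact (left_eq_mul.1 e1)
  set w : V := ρ x v with hwdef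
  have hw' : v * ρ x w = w := by
    have : v * ρ x w = w⁻¹ := by
      apply eq_inv_of_mul_eq_one_left
      rw [mul_assoc, mul_comm (ρ x w) w, ← mul_assoc]
      exact hsum
    rw [this, inv_eq_self_of h2]
  have hcomm : y * (h * w) * y⁻¹ = h * w := by
    calc y * (h * w) * y⁻¹ = (y * h * y⁻¹) * (y * w * y⁻¹) := by group
      _ = h * ((v * ρ x w : V) : L) := by rw [hyh, hyv, mul_assoc]; rfl
      _ = h * w := by rw [hw']
  have hTw : h * (w : L) * h⁻¹ = (ρ T w : L) := by rw [hconj, hh]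
  have hsquare : (h * w) * (h * w) = (((ρ T w) * ⟨h * h, hm⟩ * w : V) : L) := by
    show _ = (ρ T w : L) * (h * h) * (w : L)
    rw [← hTw]; group
  have hm' : (h * w) * (h * w) ∈ V := by rw [hsquare]; exact Subtype.prop _
  have hfixT : ρ T ⟨_, hm'⟩ = ⟨_, hm'⟩ := by
    apply Subtype.ext
    rw [← (show π (h * w) = T by
      rw [map_mul, hh, (MonoidHom.mem_ker.1 (hker.symm ▸ w.2) : π (w : L) = 1), mul_one]),
      ← hconj]
    group
  have hfixx : ρ x ⟨_, hm'⟩ = ⟨_, hm'⟩ := by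
    apply Subtype.ext
    rw [← hy, ← hconj]
    show y * ((h * w) * (h * w)) * y⁻¹ = (h * w) * (h * w)
    calc y * ((h * w) * (h * w)) * y⁻¹ = (y * (h * w) * y⁻¹) * (y * (h * w) * y⁻¹) := by group
      _ = _ := by rw [hcomm]
  have hcomm' : ∀ z, ρ T (ρ x z) = ρ x (ρ T z) := fun z => by
    rw [← MulAut.mul_apply, ← MulAut.mul_apply, ← map_mul, ← map_mul, hTx]
  have key := fix_axis h2 hcard hH hc hfc hw hr3 (fun e => hx1 (hρ (e.trans (map_one ρ).symm)))
    hcomm' hfixT hfixx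
  have heq : (⟨_, hm'⟩ : V) = ρ T w * ⟨h * h, hm⟩ * w := Subtype.ext hsquare
  have heq' : (⟨h * h, hm⟩ : V) = (⟨_, hm'⟩ : V) * (ρ T w * w) := by
    rw [heq, mul_right_comm (ρ T w) _ w, mul_comm _ (ρ T w * w), ← mul_assoc, h2, one_mul]
  rcases hw w with hh' | hh' <;> rw [hh'] at heq'
  · rw [heq', h2, mul_one]
    exact key
  · rw [mul_right_comm w c w, h2, one_mul] at heq'
    rcases key with k | k <;> rw [k] at heq'
    · exact Or.inr (by rw [heq', one_mul])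
    · exact Or.inl (by rw [heq', h2])

/-- The main construction. -/
theorem not_sectional_four (V : Subgroup L) [V.Normal]
    (hV2 : ∀ v ∈ V, v * v = 1) (hcard : Nat.card V = 16)
    (π : L →* Perm (Fin 6)) (hπ : Function.Surjective π) (hker : π.ker = V)
    (f : Perm (Fin 6) →* alternatingGroup (Fin 8)) (hf : Function.Injective f)
    (e : alternatingGroup (Fin 8) ≃* MulAut V)
    (hcompat : ∀ l, MulAut.conjNormal l = e (f (π l)))
    (hfree : ∀ T, T = tt1 ∨ T = tt2 ∨ T = tt3 → ∀ x, ((f T : alternatingGroup (Fin 8)) : Perm (Fin 8)) x ≠ x) :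
    ¬ Cfsg.SectionalPRankLE 2 4 L := by
  classical
  intro hrank
  letI : CommGroup V :=
    { (inferInstance : Group V) with
      mul_comm := fun a b => by
        apply Subtype.ext
        show (a : L) * b = b * a
        have hinv : ∀ v ∈ V, (v : L)⁻¹ = v := fun v hv => inv_eq_of_mul_eq_one_right (hV2 v hv)
        rw [← hinv _ (V.mul_mem a.2 b.2), mul_inv_rev, hinv _ a.2, hinv _ b.2] }
  have h2 : ∀ v : V, v * v = 1 := fun v => Subtype.ext (hV2 _ v.2)
  let ρ : Perm (Fin 6) →* MulAut V := e.toMonoidHom.comp f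
  have hρ : Function.Injective ρ := e.injective.comp hf
  have hconj : ∀ (l : L) (v : V), l * (v : L) * l⁻¹ = (ρ (π l) v : L) := by
    intro l v
    have := DFunLike.congr_fun (hcompat l) v
    show _ = ((e (f (π l))) v : L)
    rw [← this]
    exact (MulAut.conjNormal_apply l v).symm
  have hinvol : ∀ T : Perm (Fin 6), T * T = 1 → ∀ w, ρ T (ρ T w) = w := fun T hT w => by
    rw [← MulAut.mul_apply, ← map_mul, hT, map_one]; rfl
  have htv : ∀ T, T = tt1 ∨ T = tt2 ∨ T = tt3 →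
      Nat.card (fixW (ρ T)) = 8 ∧ ∃ c, c ≠ 1 ∧ ρ T c = c ∧ ∀ w, ρ T w = w ∨ ρ T w = w * c := by
    intro T hT
    have hTT : T * T = 1 := by rcases hT with rfl | rfl | rfl <;> decide +kernel
    have hT1 : T ≠ 1 := by rcases hT with rfl | rfl | rfl <;> decide +kernel
    refine transvection h2 hcard (ρ T) (hinvol T hTT) (fun h => hT1 (hρ (h.trans (map_one ρ).symm))) ?_
    exact large_centralizer e (f T) (by rw [← map_mul, hTT, map_one]) (hfree T hT)
  obtain ⟨hH1, c1, hc1, hf1, hw1⟩ := htv tt1 (Or.inl rfl)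
  obtain ⟨hH2, c2, hc2, hf2, hw2⟩ := htv tt2 (Or.inr (Or.inl rfl))
  obtain ⟨hH3, c3, hc3, hf3, hw3⟩ := htv tt3 (Or.inr (Or.inr rfl))
  obtain ⟨⟨f12, f13, f21, f23, f31, f32⟩, hU, hU3, hUU, hUU23⟩ :=
    geometry h2 hcard ρ hρ c1 c2 c3 hH1 hH2 hH3 hc1 hc2 hc3 hf1 hf2 hf3 hw1 hw2 hw3
  let U : Subgroup V := fixW (ρ tt1) ⊓ fixW (ρ tt2)
  change Nat.card U = 4 at hU
  have hc3U : c3 ∈ U := ⟨f31, f32⟩
  -- all lifts of a transvection square into its centre
  have hsq : ∀ T x c, Nat.card (fixW (ρ T)) = 8 → c ≠ 1 → ρ T c = c →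
      (∀ w, ρ T w = w ∨ ρ T w = w * c) → T * T = 1 → x * (x * x) = 1 → x ≠ 1 → T * x = x * T →
      ∀ h : L, π h = T → ∃ hm : h * h ∈ V, (⟨h * h, hm⟩ : V) = 1 ∨ (⟨h * h, hm⟩ : V) = c :=
    fun T x c hH hc hfc hw hTT hx3 hx1 hTx h hh =>
      lift_square V hV2 mul_comm hcard π hπ hker ρ hρ hconj T x c hH hc hfc hw hTT hx3 hx1 hTx h hh
  obtain ⟨h1, hh1⟩ := hπ tt1
  obtain ⟨h2', hh2⟩ := hπ tt2
  obtain ⟨h3, hh3⟩ := hπ tt3
  let N' : Subgroup L := U.map V.subtype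
  have hsqU : ∀ h T x c, π h = T → Nat.card (fixW (ρ T)) = 8 → c ≠ 1 → ρ T c = c →
      (∀ w, ρ T w = w ∨ ρ T w = w * c) → T * T = 1 → x * (x * x) = 1 → x ≠ 1 → T * x = x * T →
      c ∈ U → h * h ∈ N' ∧ (∀ T', ρ T' c = c → π h = T → ∀ g : L, π g = T' → g * (h * h) * g⁻¹ = h * h) := by
    intro h T x c hh hH hc hfc hw hTT hx3 hx1 hTx hcU
    obtain ⟨hm, hk⟩ := hsq T x c hH hc hfc hw hTT hx3 hx1 hTx h hh
    constructor
    · refine ⟨⟨h * h, hm⟩, ?_, rfl⟩
      rcases hk with k | k <;> rw [k]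
      · exact U.one_mem
      · exact hcU
    · intro T' hT' _ g hg
      have := hconj g ⟨h * h, hm⟩
      rw [hg] at this
      refine this.trans ?_
      rcases hk with k | k
      · rw [k, map_one]; exact (congrArg Subtype.val k).symm
      · rw [k, hT']; exact (congrArg Subtype.val k).symm
  obtain ⟨hq1, hq1'⟩ := hsqU h1 tt1 xx1 c1 hh1 hH1 hc1 hf1 hw1 (by decide +kernel) (by decide +kernel) (by decide +kernel) (by decide +kernel) ⟨hf1, f12⟩
  obtain ⟨hq2, hq2'⟩ := hsqU h2' tt2 xx2 c2 hh2 hH2 hc2 hf2 hw2 (by decide +kernel) (by decide +kernel) (by decide +kernel) (by decide +kernel) ⟨f21, hf2⟩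
  obtain ⟨hq3, hq3'⟩ := hsqU h3 tt3 xx3 c3 hh3 hH3 hc3 hf3 hw3 (by decide +kernel) (by decide +kernel) (by decide +kernel) (by decide +kernel) hc3U
  -- commutators of lifts
  have hcom : ∀ (g h : L) (T T' : Perm (Fin 6)), π g = T → π h = T' → T * T' = T' * T →
      g * (h * h) * g⁻¹ = h * h → h * (g * g) * h⁻¹ = g * g →
      ∃ v : V, g * h * g⁻¹ * h⁻¹ = (v : L) ∧ ρ T v = v ∧ ρ T' v = v := by
    intro g h T T' hg hh hTT e1 e2
    have hm : g * h * g⁻¹ * h⁻¹ ∈ V := by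
      rw [← hker, MonoidHom.mem_ker, map_mul, map_mul, map_mul, map_inv, map_inv, hg, hh, hTT,
        mul_inv_cancel_right, mul_inv_cancel]
    refine ⟨⟨_, hm⟩, rfl, ?_, ?_⟩
    · have h4 := hconj g ⟨_, hm⟩
      rw [hg] at h4
      apply Subtype.ext
      rw [← h4]
      have key : g * (g * h * g⁻¹ * h⁻¹) * g⁻¹ * (g * h * g⁻¹ * h⁻¹) = 1 := by
        calc g * (g * h * g⁻¹ * h⁻¹) * g⁻¹ * (g * h * g⁻¹ * h⁻¹) = (g * g) * h * (g * g)⁻¹ * h⁻¹ := by group
          _ = (g * g) * (h * (g * g) * h⁻¹)⁻¹ := by group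
          _ = 1 := by rw [e2, mul_inv_cancel]
      exact (eq_inv_of_mul_eq_one_left key).trans (inv_eq_of_mul_eq_one_right (hV2 _ hm))
    · have h4 := hconj h ⟨_, hm⟩
      rw [hh] at h4
      apply Subtype.ext
      rw [← h4]
      have key : g * h * g⁻¹ * h⁻¹ * (h * (g * h * g⁻¹ * h⁻¹) * h⁻¹) = 1 := by
        calc g * h * g⁻¹ * h⁻¹ * (h * (g * h * g⁻¹ * h⁻¹) * h⁻¹) = g * (h * h) * g⁻¹ * (h * h)⁻¹ := by group
          _ = 1 := by rw [e1, mul_inv_cancel]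
      exact (eq_inv_of_mul_eq_one_right key).trans (inv_eq_of_mul_eq_one_right (hV2 _ hm))
  have hcomm12 : h1 * h2' * h1⁻¹ * h2'⁻¹ ∈ N' := by
    obtain ⟨v, hv, a, b⟩ := hcom h1 h2' tt1 tt2 hh1 hh2 (by decide +kernel)
      (hq2' tt1 f21 hh2 h1 hh1) (hq1' tt2 f12 hh1 h2' hh2)
    exact ⟨v, ⟨a, b⟩, hv.symm⟩
  have hcomm13 : h1 * h3 * h1⁻¹ * h3⁻¹ ∈ N' := by
    obtain ⟨v, hv, a, b⟩ := hcom h1 h3 tt1 tt3 hh1 hh3 (by decide +kernel)
      (hq3' tt1 f31 hh3 h1 hh1) (hq1' tt3 f13 hh1 h3 hh3)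
    exact ⟨v, hUU v a b, hv.symm⟩
  have hcomm23 : h2' * h3 * h2'⁻¹ * h3⁻¹ ∈ N' := by
    obtain ⟨v, hv, a, b⟩ := hcom h2' h3 tt2 tt3 hh2 hh3 (by decide +kernel)
      (hq3' tt2 f32 hh3 h2' hh2) (hq2' tt3 f23 hh2 h3 hh3)
    exact ⟨v, hUU23 v a b, hv.symm⟩
  -- the section
  let gens : Set L := (V : Set L) ∪ {h1, h2', h3}
  let P := Subgroup.closure gens
  have hgens : ∀ g ∈ gens, g * g ∈ N' ∧ (∀ v : V, g * (v : L) * g⁻¹ * (v : L)⁻¹ ∈ N') := by
    have aux : ∀ h T c, π h = T → (∀ w, ρ T w = w ∨ ρ T w = w * c) → c ∈ U →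
        ∀ v : V, h * (v : L) * h⁻¹ * (v : L)⁻¹ ∈ N' := by
      intro h T c hh hw hc v
      rw [hconj, hh]
      rcases hw v with e | e <;> rw [e]
      · rw [mul_inv_cancel]; exact N'.one_mem
      · refine ⟨c, hc, ?_⟩
        show (c : L) = ((v * c * v⁻¹ : V) : L)
        rw [mul_comm v c, mul_inv_cancel_right]
    rintro g (hg | hg | hg | hg)
    · refine ⟨?_, fun v => ?_⟩
      · rw [hV2 g hg]; exact N'.one_mem
      · have h5 : (⟨g, hg⟩ : V) * v * (⟨g, hg⟩ : V)⁻¹ * v⁻¹ = 1 := by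
          rw [mul_comm (⟨g, hg⟩ : V) v, mul_inv_cancel_right, mul_inv_cancel]
        have h6 : g * (v : L) * g⁻¹ * (v : L)⁻¹ = 1 := congrArg Subtype.val h5
        rw [h6]; exact N'.one_mem
    · subst hg; exact ⟨hq1, aux _ tt1 c1 hh1 hw1 ⟨hf1, f12⟩⟩
    · subst hg; exact ⟨hq2, aux _ tt2 c2 hh2 hw2 ⟨f21, hf2⟩⟩
    · rw [Set.mem_singleton_iff] at hg
      subst hg; exact ⟨hq3, aux _ tt3 c3 hh3 hw3 hc3U⟩
  have hgencomm : ∀ a ∈ gens, ∀ b ∈ gens, a * b * a⁻¹ * b⁻¹ ∈ N' := by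
    have inv' : ∀ a b : L, a * b * a⁻¹ * b⁻¹ ∈ N' → b * a * b⁻¹ * a⁻¹ ∈ N' := fun a b h => by
      have := N'.inv_mem h
      simpa [mul_assoc] using this
    have self : ∀ a : L, a * a * a⁻¹ * a⁻¹ ∈ N' := fun a => by
      rw [show a * a * a⁻¹ * a⁻¹ = 1 by group]; exact N'.one_mem
    intro a ha b hb
    by_cases hbV : b ∈ V
    · exact (hgens a ha).2 ⟨b, hbV⟩
    by_cases haV : a ∈ V
    · exact inv' _ _ ((hgens b hb).2 ⟨a, haV⟩)
    have ha' : a = h1 ∨ a = h2' ∨ a = h3 := ha.resolve_left haV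
    have hb' : b = h1 ∨ b = h2' ∨ b = h3 := hb.resolve_left hbV
    rcases ha' with rfl | rfl | rfl <;> rcases hb' with rfl | rfl | rfl <;>
      first
        | exact self _ | exact hcomm12 | exact hcomm13 | exact hcomm23
        | exact inv' _ _ hcomm12 | exact inv' _ _ hcomm13 | exact inv' _ _ hcomm23
  have hN'P : N' ≤ P := fun n hn => by
    obtain ⟨v, -, rfl⟩ := hn
    exact Subgroup.subset_closure (Or.inl v.2)
  have hcentral : ∀ n ∈ N', ∀ g ∈ P, g * n = n * g := by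
    rintro _ ⟨v, hv, rfl⟩ g hg
    have hle : P ≤ Subgroup.centralizer ({(v : L)} : Set L) := by
      refine (Subgroup.closure_le _).2 ?_
      have aux : ∀ (h : L) T, π h = T → ρ T v = v → h * (v : L) = v * h := by
        intro h T hh e
        rw [← mul_inv_eq_iff_eq_mul, hconj, hh, e]
      rintro g (hg | hg | hg | hg) <;> rw [SetLike.mem_coe, Subgroup.mem_centralizer_singleton_iff]
      · exact congrArg Subtype.val (mul_comm (⟨g, hg⟩ : V) v)
      · subst hg; exact aux _ _ hh1 hv.1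
      · subst hg; exact aux _ _ hh2 hv.2
      · rw [Set.mem_singleton_iff] at hg
        subst hg; exact aux _ _ hh3 (hU3 v hv)
    exact Subgroup.mem_centralizer_singleton_iff.1 (hle hg)
  haveI hNn : (N'.subgroupOf P).Normal := ⟨fun n hn g => by
    rw [Subgroup.mem_subgroupOf] at hn ⊢
    show (g : L) * n * (g : L)⁻¹ ∈ N'
    rw [hcentral _ hn _ g.2, mul_inv_cancel_right]
    exact hn⟩
  let S : Set (↥P ⧸ N'.subgroupOf P) := QuotientGroup.mk '' (Subtype.val ⁻¹' gens)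
  have hS : Subgroup.closure S = ⊤ := by
    rw [show S = QuotientGroup.mk' (N'.subgroupOf P) '' (Subtype.val ⁻¹' gens) from rfl,
      ← MonoidHom.map_closure, Subgroup.closure_closure_coe_preimage,
      Subgroup.map_top_of_surjective _ (QuotientGroup.mk'_surjective _)]
  have hScomm : ∀ a ∈ S, ∀ b ∈ S, a * b = b * a := by
    rintro _ ⟨a, ha, rfl⟩ _ ⟨b, hb, rfl⟩
    rw [← QuotientGroup.mk_mul, ← QuotientGroup.mk_mul, eq_comm, QuotientGroup.eq, Subgroup.mem_subgroupOf]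
    show ((b : L) * a)⁻¹ * ((a : L) * b) ∈ N'
    have h := hgencomm _ ha _ hb
    have hc := hcentral _ h _ (P.mul_mem a.2 b.2)
    rw [show ((b : L) * a)⁻¹ * ((a : L) * b) =
      ((a : L) * b)⁻¹ * ((a : L) * b * (a : L)⁻¹ * (b : L)⁻¹) * ((a : L) * b) by group,
      mul_assoc, ← hc, inv_mul_cancel_left]
    exact h
  have hcommQ : ∀ a b : ↥P ⧸ N'.subgroupOf P, a * b = b * a := by
    intro a b
    have h1 : Subgroup.closure S ≤ Subgroup.centralizer S :=
      (Subgroup.closure_le _).2 (fun a ha => Subgroup.mem_centralizer_iff.2 fun b hb => hScomm b hb a ha)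
    have h2' : S ⊆ Set.center (↥P ⧸ N'.subgroupOf P) := fun s hs =>
      Semigroup.mem_center_iff.2 fun g =>
        ((Subgroup.mem_centralizer_iff.1 (h1 (hS ▸ Subgroup.mem_top g))) s hs).symm
    have h3 : Subgroup.closure S ≤ Subgroup.center (↥P ⧸ N'.subgroupOf P) :=
      (Subgroup.closure_le _).2 h2'
    exact Subgroup.mem_center_iff.1 (h3 (hS ▸ Subgroup.mem_top b)) a
  have hexp : ∀ a ∈ (⊤ : Subgroup (↥P ⧸ N'.subgroupOf P)), a ^ 2 = 1 := by
    intro a _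
    have hle : Subgroup.closure S ≤
        ({ carrier := {a | a ^ 2 = 1}
           one_mem' := one_pow 2
           mul_mem' := fun {a b} ha hb => by
             show (a * b) ^ 2 = 1
             rw [(show Commute a b from hcommQ a b).mul_pow, ha, hb, one_mul]
           inv_mem' := fun {a} ha => by
             show a⁻¹ ^ 2 = 1
             rw [inv_pow, ha, inv_one] } : Subgroup (↥P ⧸ N'.subgroupOf P)) := by
      refine (Subgroup.closure_le _).2 ?_
      rintro _ ⟨g, hg, rfl⟩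
      show (QuotientGroup.mk g : ↥P ⧸ N'.subgroupOf P) ^ 2 = 1
      rw [← QuotientGroup.mk_pow, QuotientGroup.eq_one_iff, Subgroup.mem_subgroupOf, sq]
      exact (hgens _ hg).1
    exact hle (hS ▸ Subgroup.mem_top a)
  have hsmall := hrank P (N'.subgroupOf P) ⊤ ⟨⟨fun a b => Subtype.ext (hcommQ a b)⟩⟩ hexp
  rw [Subgroup.card_top, ← Subgroup.index_eq_card] at hsmall
  have hN4 : Nat.card N' = 4 := by
    rw [← hU]
    exact Nat.card_congr (U.equivMapOfInjective _ Subtype.val_injective).toEquiv.symm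
  have hP : 128 ≤ Nat.card P := by
    let g : V × (Fin 2 × Fin 2 × Fin 2) → ↥P := fun p =>
      ⟨(p.1 : L) * (h1 ^ (p.2.1 : ℕ) * (h2' ^ (p.2.2.1 : ℕ) * h3 ^ (p.2.2.2 : ℕ))),
        P.mul_mem (Subgroup.subset_closure (Or.inl p.1.2))
          (P.mul_mem (P.pow_mem (Subgroup.subset_closure (Or.inr (by simp))) _)
            (P.mul_mem (P.pow_mem (Subgroup.subset_closure (Or.inr (by simp))) _)
              (P.pow_mem (Subgroup.subset_closure (Or.inr (by simp))) _)))⟩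
    have hg : Function.Injective g := by
      rintro ⟨v, p⟩ ⟨w, r⟩ h
      have h' := congrArg Subtype.val h
      simp only [g] at h'
      have hp : p = r := by
        have hπ' := congrArg π h'
        simp only [map_mul, map_pow, hh1, hh2, hh3,
          (MonoidHom.mem_ker.1 (hker.symm ▸ v.2) : π (v : L) = 1),
          (MonoidHom.mem_ker.1 (hker.symm ▸ w.2) : π (w : L) = 1), one_mul] at hπ'
        exact distinct_products p r hπ'
      subst hp
      exact Prod.ext (Subtype.ext (mul_right_cancel h')) rfl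
    have := Nat.card_le_card_of_injective g hg
    simpa [hcard] using this
  have hmul := (N'.subgroupOf P).card_mul_index
  rw [Nat.card_congr (Subgroup.subgroupOfEquivOfLe hN'P).toEquiv, hN4] at hmul
  omega

end Cfsg.Agent.TwoAut.RankFive
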