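import Cfsg.Agent.TwoAut.RankFive
import Cfsg.Agent.TwoAut.SubEightMain

/-!
# `S₆` and `A₈` as radical quotients force sectional 2-rank at least five
-/

set_option autoImplicit false
set_option linter.all false

namespace Cfsg.Agent.TwoAut.RankFive

open Equiv Cfsg MulAction

universe u v

theorem sectional_of_injective {Y : Type u} [Group Y] {X : Type v} [Group X] {p k : ℕ}
    (f : Y →* X) (hf : Function.Injective f) (h : SectionalPRankLE p k X) :
    SectionalPRankLE p k Y := by
  intro H N _ A hA hpow
  let e : H ≃* H.map f := H.equivMapOfInjective f hf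
  haveI : (N.map e.toMonoidHom).Normal := Subgroup.Normal.map inferInstance _ e.surjective
  let q : H ⧸ N ≃* H.map f ⧸ N.map e.toMonoidHom := QuotientGroup.congr N _ e rfl
  haveI := hA
  have h1 := h (H.map f) (N.map e.toMonoidHom) (A.map q.toMonoidHom)
    (Subgroup.map_isMulCommutative A q.toMonoidHom) (by
      rintro _ ⟨a, ha, rfl⟩
      rw [← map_pow, hpow a ha, map_one])
  rwa [← Nat.card_congr (A.equivMapOfInjective q.toMonoidHom q.injective).toEquiv] at h1

theorem free_of_odd {σ : Perm (Fin 8)} (hs : Perm.sign σ = 1) {O : Set (Fin 8)} (hO : Nat.card O = 6)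
    (hinv : ∀ x, σ x ∈ O ↔ x ∈ O) (hfree : ∀ x ∈ O, σ x ≠ x)
    (hodd : ∀ [DecidablePred (· ∈ O)], Perm.sign (σ.subtypePerm (p := (· ∈ O)) hinv) = -1) :
    ∀ x, σ x ≠ x := by
  classical
  intro x hx
  by_cases hxO : x ∈ O
  · exact hfree x hxO hx
  have hcard : (Oᶜ).ncard = 2 := by
    have := Set.ncard_add_ncard_compl O
    rw [← Nat.card_coe_set_eq, hO, Nat.card_fin] at this
    omega
  obtain ⟨a, b, hab, hC⟩ := Set.ncard_eq_two.1 hcard
  have hfix : ∀ y, y ∉ O → σ y = y := by
    intro y hy
    by_cases hyx : y = x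
    · rw [hyx]; exact hx
    have hy' : σ y ∈ Oᶜ := fun h => hy ((hinv y).1 h)
    have hyO : y ∈ Oᶜ := hy
    have hxO' : x ∈ Oᶜ := hxO
    have hne : σ y ≠ x := fun h => hyx (σ.injective (h.trans hx.symm))
    rw [hC] at hy' hyO hxO'
    simp only [Set.mem_insert_iff, Set.mem_singleton_iff] at hy' hyO hxO'
    rcases hy' with h1 | h1 <;> rcases hyO with h2 | h2 <;> rcases hxO' with h3 | h3
    all_goals first
      | exact h1.trans h2.symm
      | exact absurd (h1.trans h3.symm) hne
      | exact absurd (h2.trans h3.symm) hyx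
  have h1 : Perm.sign (σ.subtypePerm (p := (· ∈ O)) hinv) = 1 :=
    (Perm.sign_subtypePerm σ hinv (fun y hy => by_contra fun h => hy (hfix y h))).trans hs
  rw [hodd] at h1
  exact absurd h1 (by decide)

theorem tt_free : ∀ T, T = tt1 ∨ T = tt2 ∨ T = tt3 → (∀ x, T x ≠ x) ∧ Perm.sign T = -1 := by
  rintro T (rfl | rfl | rfl) <;> exact ⟨by decide +kernel, by decide +kernel⟩

theorem not_solvable_perm_six : ¬ Group.IsSolvable (Perm (Fin 6)) := by
  intro h
  refine Equiv.Perm.not_solvable (Fin 6) ?_ h
  rw [Cardinal.mk_fin]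
  norm_num

theorem not_solvable_alt_six : ¬ Group.IsSolvable (alternatingGroup (Fin 6)) := fun h =>
  not_solvable_perm_six (solvable_of_hom Perm.sign (Group.isSolvable_of_comm fun a b => mul_comm a b) h)

theorem six_core : pCore 2 (Perm (Fin 6)) = ⊥ := by
  haveI : Fact (Nat.Prime 2) := ⟨Nat.prime_two⟩
  obtain ⟨k, hk⟩ := (PSolv.isPGroup_pCore 2 (Perm (Fin 6))).exists_card_eq
  have h5 : 5 ≤ Nat.card (Fin 6) := by rw [Nat.card_fin]; norm_num
  rcases Alt.normal_eq_bot_or_alt_or_top h5 (pCore 2 (Perm (Fin 6))) with h | h | h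
  · exact h
  · exfalso
    rw [h, SubEight.card_alt 6 360 (by norm_num) rfl] at hk
    have : 5 ∣ 2 ^ k := hk ▸ by norm_num
    have := Nat.prime_five.dvd_of_dvd_pow this
    norm_num at this
  · exfalso
    rw [h, Subgroup.card_top, SubEight.card_perm_fin] at hk
    have : 5 ∣ 2 ^ k := hk ▸ (by norm_num [Nat.factorial])
    have := Nat.prime_five.dvd_of_dvd_pow this
    norm_num at this

theorem fin_two_fixed : ∀ (p : Perm (Fin 2)) (j : Fin 2), p j = j → p = 1 := by decide +kernel

/-- An embedded `S₆` whose triple transpositions are fixed-point-free on eight points. -/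
theorem exists_six {G : Type u} [Group G] [Finite G] (f : G →* alternatingGroup (Fin 8))
    (hf : Function.Injective f)
    (h : Nonempty (G ≃* Perm (Fin 6)) ∨ Nonempty (G ≃* alternatingGroup (Fin 8))) :
    ∃ ι : Perm (Fin 6) →* G, Function.Injective ι ∧
      ∀ T, T = tt1 ∨ T = tt2 ∨ T = tt3 →
        ∀ x, ((f (ι T) : alternatingGroup (Fin 8)) : Perm (Fin 8)) x ≠ x := by
  classical
  rcases h with ⟨⟨e6⟩⟩ | ⟨⟨e8⟩⟩
  · -- `G` is `S₆`
    let φ : Perm (Fin 6) →* Perm (Fin 8) :=
      ((alternatingGroup (Fin 8)).subtype.comp f).comp e6.symm.toMonoidHom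
    have hφ : Function.Injective φ := (Subtype.val_injective.comp hf).comp e6.symm.injective
    have he : ∀ g, Perm.sign (φ g) = 1 := fun g => Perm.mem_alternatingGroup.1 (f _).2
    letI : MulAction (Perm (Fin 6)) (Fin 8) := MulAction.compHom (Fin 8) φ
    haveI : @FaithfulSMul (Perm (Fin 6)) (Fin 8) _ := ⟨fun h => hφ (Equiv.ext h)⟩
    obtain ⟨a, ha⟩ : ∃ a : Fin 8, 4 < Nat.card (orbit (Perm (Fin 6)) a) := by
      by_contra hc
      push Not at hc
      exact not_solvable_perm_six (SubEight.solvable_of_small_orbits hc)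
    generalize hm : Nat.card (orbit (Perm (Fin 6)) a) = m at ha
    have hm8 : m ≤ 8 := by
      rw [← hm]
      exact (Nat.card_le_card_of_injective _ Subtype.val_injective).trans_eq (Nat.card_fin 8)
    have hmd : m ∣ 720 := by
      rw [← hm, show (720 : ℕ) = Nat.card (Perm (Fin 6)) by rw [SubEight.card_perm_fin]; rfl]
      exact Dvd.intro _ (PermLib.card_orbit_mul_card_stabilizer (G := Perm (Fin 6)) a)
    let ε : orbit (Perm (Fin 6)) a ≃ Fin m := Fintype.equivFinOfCardEq (by rw [← Nat.card_eq_fintype_card, hm])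
    let π : Perm (Fin 6) →* Perm (Fin m) :=
      ε.permCongrHom.toMonoidHom.comp (MulAction.toPermHom (Perm (Fin 6)) (orbit (Perm (Fin 6)) a))
    have hπk : ∀ g, g ∈ π.ker → ∀ x ∈ orbit (Perm (Fin 6)) a, g • x = x := by
      intro g hg x hx
      have h1 : MulAction.toPermHom (Perm (Fin 6)) (orbit (Perm (Fin 6)) a) g = 1 :=
        ε.permCongrHom.injective (hg.trans (map_one ε.permCongrHom).symm)
      exact congrArg (fun p : Perm (orbit (Perm (Fin 6)) a) => (p ⟨x, hx⟩).1) h1
    have hinv : ∀ (g : Perm (Fin 6)) (x : Fin 8),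
        φ g x ∈ orbit (Perm (Fin 6)) a ↔ x ∈ orbit (Perm (Fin 6)) a :=
      fun g x => ⟨fun h => by
        have := mem_orbit_of_mem_orbit g⁻¹ h
        have hgx : g⁻¹ • (g • x) = x := inv_smul_smul g x
        rw [show φ g x = g • x from rfl, hgx] at this
        exact this,
        fun h => mem_orbit_of_mem_orbit g h⟩
    have hker : π.ker = ⊥ := by
      have hs : Group.IsSolvable π.ker := by
        refine SubEight.solvable_of_small_orbits (α := Fin 8) fun x => ?_
        by_cases hx : x ∈ orbit (Perm (Fin 6)) a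
        · refine le_trans (Nat.card_le_card_of_injective (fun _ => ()) ?_)
            (by simp : Nat.card Unit ≤ 4)
          rintro ⟨y, g, rfl⟩ ⟨z, g', rfl⟩ _
          exact Subtype.ext ((hπk _ g.2 x hx).trans (hπk _ g'.2 x hx).symm)
        · have hsub : orbit π.ker x ⊆ (orbit (Perm (Fin 6)) a)ᶜ := by
            rintro _ ⟨g, rfl⟩ hgx
            exact hx ((hinv (g : Perm (Fin 6)) x).1 hgx)
          have h1 := Set.ncard_le_ncard hsub
          have h2 := Set.ncard_add_ncard_compl (orbit (Perm (Fin 6)) a)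
          rw [← Nat.card_coe_set_eq, hm, Nat.card_fin] at h2
          rw [Nat.card_coe_set_eq]
          omega
      have h5 : 5 ≤ Nat.card (Fin 6) := by rw [Nat.card_fin]; norm_num
      rcases Alt.normal_eq_bot_or_alt_or_top h5 π.ker with h | h | h
      · exact h
      · exfalso
        rw [h] at hs
        exact not_solvable_alt_six hs
      · exfalso
        rw [h] at hs
        haveI := hs
        exact not_solvable_perm_six
          (Group.isSolvable_of_isSolvable_injective
            (f := (Subgroup.topEquiv (G := Perm (Fin 6))).symm.toMonoidHom)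
            (Subgroup.topEquiv (G := Perm (Fin 6))).symm.injective)
    have hπi : Function.Injective π := (MonoidHom.ker_eq_bot_iff π).1 hker
    have hdvd := Subgroup.card_dvd_of_injective π hπi
    rw [SubEight.card_perm_fin, SubEight.card_perm_fin] at hdvd
    have hm6 : m = 6 := by
      have hle := Nat.le_of_dvd (Nat.factorial_pos m) hdvd
      interval_cases m
      · norm_num [Nat.factorial] at hle
      · rfl
      · norm_num at hmd
      · exfalso
        have htr : ∀ x y, ∃ g, π g x = y := by
          intro x y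
          obtain ⟨g, hg⟩ := exists_smul_eq (Perm (Fin 6)) (ε.symm x) (ε.symm y)
          refine ⟨g, ?_⟩
          show ε (g • ε.symm x) = y
          rw [hg, Equiv.apply_symm_apply]
        have hall : ∀ x : Fin 8, x ∈ orbit (Perm (Fin 6)) a := by
          intro x
          have h2 := Set.ncard_add_ncard_compl (orbit (Perm (Fin 6)) a)
          rw [← Nat.card_coe_set_eq, hm, Nat.card_fin] at h2
          by_contra hx
          have h0 : ((orbit (Perm (Fin 6)) a)ᶜ).ncard = 0 := by omega
          rw [Set.ncard_eq_zero] at h0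
          exact (Set.eq_empty_iff_forall_notMem.1 h0) x hx
        have heven : ∀ g, Perm.sign (π g) = 1 := by
          intro g
          show Perm.sign (ε.permCongr _) = 1
          rw [Perm.sign_permCongr]
          have h1 : Perm.sign ((φ g).subtypePerm (p := (· ∈ orbit (Perm (Fin 6)) a)) (hinv g)) = 1 :=
            (Perm.sign_subtypePerm (φ g) (hinv g) (fun x _ => hall x)).trans (he g)
          convert h1 using 2
          exact Equiv.ext fun x => rfl
        rcases SubEight.eight π hπi heven htr not_solvable_perm_six six_core with ⟨⟨e⟩⟩ | ⟨_, hc⟩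
        · have h1 := Nat.card_congr e.toEquiv
          rw [SubEight.card_alt 8 20160 (by norm_num) rfl, SubEight.card_perm_fin] at h1
          norm_num [Nat.factorial] at h1
        · rw [SubEight.card_perm_fin] at hc
          norm_num [Nat.factorial] at hc
    subst hm6
    let π' : Perm (Fin 6) ≃* Perm (Fin 6) :=
      MulEquiv.ofBijective π (Finite.injective_iff_bijective.1 hπi)
    refine ⟨e6.symm.toMonoidHom.comp π'.symm.toMonoidHom,
      e6.symm.injective.comp π'.symm.injective, fun T hT => ?_⟩
    obtain ⟨hfree, hodd⟩ := tt_free T hT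
    show ∀ x, φ (π'.symm T) x ≠ x
    set g := π'.symm T with hg
    have hπg : π g = T := π'.apply_symm_apply T
    refine free_of_odd (O := orbit (Perm (Fin 6)) a) (he g) hm (hinv g) ?_ ?_
    · intro x hx hgx
      refine hfree (ε ⟨x, hx⟩) ?_
      rw [← hπg]
      show ε (g • ε.symm (ε ⟨x, hx⟩)) = ε ⟨x, hx⟩
      rw [Equiv.symm_apply_apply]
      exact congrArg ε (Subtype.ext hgx)
    · intro _
      rw [← hodd, ← hπg]
      show _ = Perm.sign (ε.permCongr _)
      rw [Perm.sign_permCongr]
      congr 1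
      exact Equiv.ext fun x => rfl
  · -- `G` is `A₈`
    have hb : Function.Bijective f := hf.bijective_of_nat_card_le (Nat.card_congr e8.toEquiv).ge
    let s : Perm (Fin 2) ≃* ℤˣ :=
      MulEquiv.ofBijective Perm.sign ⟨by decide, Perm.sign_surjective (Fin 2)⟩
    let em : Perm (Fin 6) →* Perm (Fin 8) :=
      ((finSumFinEquiv : Fin 6 ⊕ Fin 2 ≃ Fin 8).permCongrHom.toMonoidHom.comp
        (Perm.sumCongrHom (Fin 6) (Fin 2))).comp
        ((MonoidHom.id (Perm (Fin 6))).prod (s.symm.toMonoidHom.comp Perm.sign))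
    have hem : ∀ σ, em σ ∈ alternatingGroup (Fin 8) := by
      intro σ
      rw [Perm.mem_alternatingGroup]
      show Perm.sign ((finSumFinEquiv : Fin 6 ⊕ Fin 2 ≃ Fin 8).permCongr
        (Equiv.sumCongr σ (s.symm (Perm.sign σ)))) = 1
      rw [Perm.sign_permCongr, Perm.sign_sumCongr]
      rw [show Perm.sign (s.symm (Perm.sign σ)) = Perm.sign σ from s.apply_symm_apply _]
      rcases Int.units_eq_one_or (Perm.sign σ) with h | h <;> rw [h] <;> rfl
    refine ⟨((MulEquiv.ofBijective f hb).symm.toMonoidHom).comp (em.codRestrict _ hem), ?_, ?_⟩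
    · refine (MulEquiv.ofBijective f hb).symm.injective.comp ?_
      intro a b h
      have h' : em a = em b := congrArg Subtype.val h
      have h'' := (finSumFinEquiv : Fin 6 ⊕ Fin 2 ≃ Fin 8).permCongr.injective h'
      apply Equiv.ext
      intro x
      exact Sum.inl_injective (congrArg (fun p : Perm (Fin 6 ⊕ Fin 2) => p (Sum.inl x)) h'')
    · intro T hT x
      obtain ⟨hfree, hodd⟩ := tt_free T hT
      have hfx : f ((MulEquiv.ofBijective f hb).symm ⟨em T, hem T⟩) = ⟨em T, hem T⟩ :=
        (MulEquiv.ofBijective f hb).apply_symm_apply _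
      show ((f ((MulEquiv.ofBijective f hb).symm ⟨em T, hem T⟩) : alternatingGroup (Fin 8)) :
        Perm (Fin 8)) x ≠ x
      rw [hfx]
      show (finSumFinEquiv : Fin 6 ⊕ Fin 2 ≃ Fin 8) (Equiv.sumCongr T (s.symm (Perm.sign T))
        ((finSumFinEquiv : Fin 6 ⊕ Fin 2 ≃ Fin 8).symm x)) ≠ x
      rw [Ne, ← Equiv.eq_symm_apply]
      generalize (finSumFinEquiv : Fin 6 ⊕ Fin 2 ≃ Fin 8).symm x = z
      cases z with
      | inl i => exact fun h => hfree i (Sum.inl_injective h)
      | inr j =>
        intro h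
        have h' : s.symm (Perm.sign T) j = j := Sum.inr_injective h
        rw [hodd] at h'
        have key : ∀ p : Perm (Fin 2), p j = j → p = 1 := fun p hp => fin_two_fixed p j hp
        have h1 := congrArg s (key _ h')
        rw [MulEquiv.apply_symm_apply, map_one] at h1
        exact absurd h1 (by decide)

end Cfsg.Agent.TwoAut.RankFive
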